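import Cfsg.Agent.HallHigmanB.TopLayer

/-!
Group theoretic tools for the bound of Gross on the `2`-length.
-/

set_option autoImplicit false
set_option linter.style.haveILetI false

namespace CfsgLib.GrossLength

open CfsgLib.PCore
open scoped commutatorElement

/-- An element lies in `O_{p',p}` when its images under a family of maps with kernel of order prime to `p` do. -/
theorem mem_pPrimePCore_of_forall {K : Type*} [Group K] [Finite K] {p : ℕ} [hp : Fact p.Prime] {ι : Type*}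
    {G : ι → Type*} [∀ i, Group (G i)] [∀ i, Finite (G i)] (f : ∀ i, K →* G i)
    (hker : ∀ c : K, c ^ p = 1 → (∀ i, f i c = 1) → c = 1) {y : K}
    (hy : ∀ i, f i y ∈ Cfsg.pPrimePCore p (G i)) : y ∈ Cfsg.pPrimePCore p K := by
  classical
  set R : Subgroup K := ⨅ i, (Cfsg.pPrimeCore p (G i)).comap (f i) with hR
  haveI hRn : R.Normal := by
    rw [hR]
    refine Subgroup.normal_iInf_normal fun i => ?_
    exact (Cfsg.pPrimeCore_normal p (G i)).comap _
  have hRK : R ≤ Cfsg.pPrimeCore p K := by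
    refine le_pPrimeCore_of_not_dvd hRn fun hd => ?_
    obtain ⟨⟨c, hc⟩, hco⟩ := exists_prime_orderOf_dvd_card' p hd
    rw [← Subgroup.orderOf_coe] at hco
    have hcp : c ^ p = 1 := hco ▸ pow_orderOf_eq_one c
    have hone : ∀ i, f i c = 1 := fun i => by
      have h1 : f i c ∈ Cfsg.pPrimeCore p (G i) := (Subgroup.mem_iInf.1 hc) i
      refine orderOf_eq_one_iff.1 (Nat.eq_one_of_dvd_coprimes (pPrimeCore_coprime p (G i))
        (Subgroup.orderOf_dvd_natCard _ h1) (orderOf_dvd_of_pow_eq_one ?_))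
      rw [← map_pow, hcp, map_one]
    have h2 : c = 1 := hker c hcp hone
    rw [show ((⟨c, hc⟩ : R) : K) = c from rfl, h2, orderOf_one] at hco
    exact hp.out.ne_one hco.symm
  set I : Subgroup K := ⨅ i, (Cfsg.pPrimePCore p (G i)).comap (f i) with hI
  haveI hIn : I.Normal := by
    rw [hI]
    refine Subgroup.normal_iInf_normal fun i => ?_
    exact (pPrimePCore_normal p (G i)).comap _
  have hyI : y ∈ I := by
    rw [hI]
    exact Subgroup.mem_iInf.2 hy
  haveI : (Cfsg.pPrimeCore p K).Normal := Cfsg.pPrimeCore_normal p K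
  refine mem_pPrimePCore.2 (le_pCore (hIn.map _ (QuotientGroup.mk'_surjective _)) ?_ ⟨y, hyI, rfl⟩)
  rintro ⟨_, a, ha, rfl⟩
  obtain ⟨j, hj⟩ : ∃ j, a ^ p ^ j ∈ R := by
    obtain ⟨o, m, hm, ho⟩ : ∃ o m, ¬ p ∣ m ∧ orderOf a = p ^ o * m :=
      Nat.exists_eq_pow_mul_and_not_dvd (orderOf_pos a).ne' p hp.out.ne_one
    refine ⟨o, Subgroup.mem_iInf.2 fun i => ?_⟩
    show f i (a ^ p ^ o) ∈ Cfsg.pPrimeCore p (G i)
    haveI : (Cfsg.pPrimeCore p (G i)).Normal := Cfsg.pPrimeCore_normal p (G i)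
    refine (QuotientGroup.eq_one_iff _).1 ?_
    show QuotientGroup.mk' (Cfsg.pPrimeCore p (G i)) (f i (a ^ p ^ o)) = 1
    obtain ⟨k, hk⟩ := isPGroup_pCore p (G i ⧸ Cfsg.pPrimeCore p (G i))
      ⟨_, mem_pPrimePCore.1 ((Subgroup.mem_iInf.1 ha) i)⟩
    have h1 : (QuotientGroup.mk' (Cfsg.pPrimeCore p (G i)) (f i (a ^ p ^ o))) ^ p ^ k = 1 := by
      rw [map_pow, map_pow, ← pow_mul, Nat.mul_comm, pow_mul]
      have h2 : (QuotientGroup.mk' (Cfsg.pPrimeCore p (G i)) (f i a)) ^ p ^ k = 1 := congrArg Subtype.val hk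
      rw [h2, one_pow]
    refine orderOf_eq_one_iff.1 (Nat.eq_one_of_dvd_coprimes
      ((hp.out.coprime_iff_not_dvd.2 hm).pow_left k) (orderOf_dvd_of_pow_eq_one h1) ?_)
    refine orderOf_dvd_of_pow_eq_one ?_
    rw [← map_pow, ← map_pow, ← pow_mul, ← ho, pow_orderOf_eq_one, map_one, map_one]
  refine ⟨j, Subtype.ext ?_⟩
  show QuotientGroup.mk' (Cfsg.pPrimeCore p K) a ^ p ^ j = 1
  rw [← map_pow]
  exact (QuotientGroup.eq_one_iff _).2 (hRK hj)

/-- A power of two of an element commuting with each conjugate whose power it moves lies in `O_{2',2}`. -/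
theorem mem_core_of_reflection {G : Type*} [Group G] [Finite G] [Group.IsSolvable G] (S : Sylow 2 G) {y : G}
    (h : ∀ w ∈ (S : Subgroup G), w * y * w⁻¹ = y ∨
      ∃ (u : G) (c : ℕ), u ∈ (S : Subgroup G) ∧ Commute u (w * u * w⁻¹) ∧ u ^ 2 ^ (c + 1) = y) :
    y ∈ Cfsg.pPrimePCore 2 G := by
  haveI : Fact (Nat.Prime 2) := ⟨Nat.prime_two⟩
  haveI : (Cfsg.pPrimeCore 2 G).Normal := Cfsg.pPrimeCore_normal 2 G
  set N := Cfsg.pPrimeCore 2 G
  set Gb := G ⧸ N
  set ν := QuotientGroup.mk' N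
  have h0 : Cfsg.pPrimeCore 2 Gb = ⊥ := pPrimeCore_quotient
  haveI : Group.IsSolvable Gb := Group.isSolvable_of_surjective (f := ν) (QuotientGroup.mk'_surjective N)
  have hs : Cfsg.IsPSolvable 2 Gb := isPSolvable_of_isSolvable
  haveI hPn : (Cfsg.pCore 2 Gb).Normal := Cfsg.pCore_normal 2 Gb
  set π := QuotientGroup.mk' (CfsgLib.HallHigmanB.coreFrattini 2 Gb)
  refine mem_pPrimePCore.2 (CfsgLib.HallHigmanB.centralizer_topLayer hs h0
    (Subgroup.mem_comap.2 (Subgroup.mem_centralizer_iff.2 ?_)))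
  rintro _ ⟨wb, hwb, rfl⟩
  have h1 := pCore_le_sylow (S.mapSurjective (QuotientGroup.mk'_surjective N)) hwb
  rw [Sylow.coe_mapSurjective] at h1
  obtain ⟨w, hw, rfl⟩ := h1
  rcases h w hw with hc | ⟨u, c, huS, hcomm, hpow⟩
  · have h2 : w * y = y * w := mul_inv_eq_iff_eq_mul.1 hc
    rw [← map_mul, ← map_mul, ← map_mul, ← map_mul, h2]
  · set d := ν (w * u * w⁻¹ * u⁻¹) with hd
    have hdP : d ∈ Cfsg.pCore 2 Gb := by
      rw [hd, map_mul, map_mul, map_mul, map_inv, map_inv,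
        show ν w * ν u * (ν w)⁻¹ * (ν u)⁻¹ = ν w * (ν u * (ν w)⁻¹ * (ν u)⁻¹) by group]
      exact mul_mem hwb (hPn.conj_mem _ (inv_mem hwb) _)
    have he : ν (w * y * w⁻¹ * y⁻¹) = (d ^ 2 ^ c) ^ 2 := by
      rw [hd, ← map_pow, ← map_pow, ← pow_mul, ← pow_succ, hcomm.symm.inv_right.mul_pow, conj_pow, inv_pow, hpow]
    have hzero : π (ν (w * y * w⁻¹ * y⁻¹)) = 1 := by
      rw [he]
      refine (QuotientGroup.eq_one_iff _).2 ⟨(⟨d, hdP⟩ ^ 2 ^ c) ^ 2, ?_, rfl⟩
      exact CfsgLib.CoprimeAction.pow_mem_frattini (isPGroup_pCore 2 Gb) _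
    rw [map_mul, map_mul, map_mul, map_inv, map_inv, map_mul, map_mul, map_mul, map_inv, map_inv,
      mul_inv_eq_one, mul_inv_eq_iff_eq_mul] at hzero
    exact hzero

/-- Elements of order dividing `4` centralising a maximal abelian normal subgroup of exponent dividing `4`. -/
theorem mem_of_centralizes {Q : Type*} [Group Q] [Finite Q] [Group.IsNilpotent Q] (P A : Subgroup Q) [hPn : P.Normal]
    (hA : Maximal (fun A : Subgroup Q => A.Normal ∧ A ≤ P ∧ (∀ a ∈ A, ∀ b ∈ A, a * b = b * a) ∧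
      ∀ a ∈ A, a ^ 4 = 1) A) {t : Q} (htP : t ∈ P) (htA : ∀ a ∈ A, t * a = a * t) (ht : t ^ 4 = 1) : t ∈ A := by
  classical
  obtain ⟨⟨hAn, hAP, hAc, hA4⟩, hmax⟩ := hA
  haveI := hAn
  obtain ⟨L, hL⟩ := (Subgroup.isNilpotent_iff_lowerCentralSeries (⊤ : Subgroup Q)).1
    inferInstance
  set Γ : ℕ → Subgroup Q := fun j => (⊤ : Subgroup Q).lowerCentralSeries j
  suffices hgood : ∀ j, ∀ t : Q, t ∈ Γ j → t ∈ P → (∀ a ∈ A, t * a = a * t) → t ^ 4 = 1 → t ^ 2 ∈ A → t ∈ A by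
    have htop : ∀ z : Q, z ∈ Γ 0 := fun z => by simp [Γ]
    have h2 : t ^ 2 ∈ A := by
      refine hgood 0 _ (htop _) (P.pow_mem htP 2) (fun a ha => ((Commute.pow_left (htA a ha) 2) : _)) ?_ ?_
      · rw [← pow_mul, show 2 * 4 = 4 * 2 by rfl, pow_mul, ht, one_pow]
      · rw [← pow_mul, show 2 * 2 = 4 by rfl, ht]
        exact A.one_mem
    exact hgood 0 t (htop t) htP htA ht h2
  have hbase : ∀ j, L ≤ j → ∀ z ∈ Γ j, z = 1 := by
    intro j hj z hz
    have hle : Γ j ≤ Γ L := Subgroup.lowerCentralSeries_antitone _ hj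
    have h1 : z ∈ Γ L := hle hz
    rw [show Γ L = ⊥ from hL] at h1
    exact Subgroup.mem_bot.1 h1
  suffices hdown : ∀ d j, L ≤ j + d → ∀ t : Q, t ∈ Γ j → t ∈ P → (∀ a ∈ A, t * a = a * t) → t ^ 4 = 1 → t ^ 2 ∈ A →
      t ∈ A from fun j => hdown L j (Nat.le_add_left L j)
  intro d
  induction d with
  | zero => intro j hj t ht' _ _ _ _; rw [hbase j (by omega) t ht']; exact A.one_mem
  | succ d IH =>
    intro j hj t htj htP htA ht4 ht2
    have hstep : ∀ i, ∀ z : Q, z ∈ Γ i → ∀ g : Q, ⁅z, g⁆ ∈ Γ (i + 1) := fun i z hz g => by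
      rw [show Γ (i + 1) = ⁅Γ i, (⊤ : Subgroup Q)⁆ from Subgroup.lowerCentralSeries_succ _ _]
      exact Subgroup.commutator_mem_commutator hz (Subgroup.mem_top g)
    -- every commutator with `t` lies in `A`
    have hcom : ∀ d', ∀ i, L ≤ i + d' → ∀ g ∈ Γ i, ⁅t, g⁆ ∈ A := by
      intro d'
      induction d' with
      | zero => intro i hi g hg; rw [hbase i (by omega) g hg, commutatorElement_one_right]; exact A.one_mem
      | succ d' IH' =>
        intro i hi g hg
        set c := ⁅t, g⁆ with hc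
        have hci : c ∈ Γ (i + 1) := by
          rw [hc, ← commutatorElement_inv g t]
          exact inv_mem (hstep i g hg t)
        have hcP : c ∈ P := by
          rw [hc, commutatorElement_def, show t * g * t⁻¹ * g⁻¹ = t * (g * t⁻¹ * g⁻¹) by group]
          exact P.mul_mem htP (hPn.conj_mem _ (P.inv_mem htP) g)
        have hcA : ∀ a ∈ A, c * a = a * c := by
          intro a ha
          have h1 : t * a = a * t := htA a ha
          have ha' : g⁻¹ * a * g ∈ A := by simpa using hAn.conj_mem a ha g⁻¹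
          have h2 : t⁻¹ * (g⁻¹ * a * g) = (g⁻¹ * a * g) * t⁻¹ := (Commute.inv_left (htA _ ha') : _)
          rw [hc, commutatorElement_def]
          calc t * g * t⁻¹ * g⁻¹ * a = t * g * (t⁻¹ * (g⁻¹ * a * g)) * g⁻¹ := by group
            _ = t * g * ((g⁻¹ * a * g) * t⁻¹) * g⁻¹ := by rw [h2]
            _ = (t * a) * g * t⁻¹ * g⁻¹ := by group
            _ = a * (t * g * t⁻¹ * g⁻¹) := by rw [h1]; group
        set a := ⁅t, c⁆ with ha
        have haA : a ∈ A := IH' (i + 1) (by omega) c hci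
        have hs : g * (t ^ 2)⁻¹ * g⁻¹ ∈ A := hAn.conj_mem _ (A.inv_mem ht2) g
        -- `(t⁻¹ c)² = g t⁻² g⁻¹`
        have e0 : t⁻¹ * c * (t⁻¹ * c) = g * (t ^ 2)⁻¹ * g⁻¹ := by
          rw [hc, commutatorElement_def, pow_two]
          group
        have e2 : t * c * t⁻¹ = a * c := by rw [ha, commutatorElement_def]; group
        have e1 : (t ^ 2)⁻¹ * a * c * c = g * (t ^ 2)⁻¹ * g⁻¹ := by
          rw [← e0]
          calc (t ^ 2)⁻¹ * a * c * c = (t ^ 2)⁻¹ * (a * c) * c := by group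
            _ = (t ^ 2)⁻¹ * (t * c * t⁻¹) * c := by rw [e2]
            _ = t⁻¹ * c * (t⁻¹ * c) := by rw [pow_two]; group
        have hcc : c * c = a⁻¹ * (t ^ 2 * (g * (t ^ 2)⁻¹ * g⁻¹)) := by rw [← e1]; group
        have hccA : c * c ∈ A := hcc ▸ A.mul_mem (A.inv_mem haA) (A.mul_mem ht2 hs)
        have hac : c * a = a * c := hcA a haA
        have haa : a * a = 1 := by
          have h1 : t * (c * c) = (c * c) * t := htA _ hccA
          have h2 : t * (c * c) * t⁻¹ = (a * c) * (a * c) := by rw [← e2]; group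
          rw [h1, mul_inv_cancel_right] at h2
          have h3 : a * c * (a * c) = a * a * (c * c) := by
            rw [mul_assoc a c, ← mul_assoc c a c, hac]; group
          rw [h3] at h2
          exact mul_eq_right.1 h2.symm
        have hw : (t ^ 2 * (g * (t ^ 2)⁻¹ * g⁻¹)) * (t ^ 2 * (g * (t ^ 2)⁻¹ * g⁻¹)) = 1 := by
          rw [← pow_two, (show Commute (t ^ 2) (g * (t ^ 2)⁻¹ * g⁻¹) from hAc _ ht2 _ hs).mul_pow, ← pow_mul,
            conj_pow, inv_pow, ← pow_mul, show 2 * 2 = 4 from rfl, ht4, inv_one, mul_one, mul_inv_cancel, one_mul]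
        refine IH (j + 1) (by omega) c (hstep j t htj g) hcP hcA ?_ (by rw [pow_two]; exact hccA)
        rw [show c ^ 4 = (c * c) * (c * c) by simp only [pow_succ, pow_zero, one_mul, mul_assoc], hcc]
        set w := t ^ 2 * (g * (t ^ 2)⁻¹ * g⁻¹) with hw'
        have hwA : w ∈ A := A.mul_mem ht2 hs
        rw [mul_assoc, ← mul_assoc w, hAc w hwA _ (A.inv_mem haA), mul_assoc, hw, mul_one, ← mul_inv_rev, haa,
          inv_one]
    have hcom' : ∀ g : Q, ⁅t, g⁆ ∈ A := fun g => hcom L 0 (by omega) g (by simp [Γ])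
    by_contra htA'
    have hBn : (A ⊔ Subgroup.zpowers t).Normal := ⟨fun b hb g => by
      have hle : A ⊔ Subgroup.zpowers t ≤ (A ⊔ Subgroup.zpowers t).comap (MulAut.conj g).toMonoidHom := by
        refine sup_le (fun b hb => Subgroup.mem_sup_left (hAn.conj_mem b hb g)) (Subgroup.zpowers_le.2 ?_)
        show g * t * g⁻¹ ∈ A ⊔ Subgroup.zpowers t
        rw [show g * t * g⁻¹ = ⁅t, g⁆⁻¹ * t by simp [commutatorElement_def, mul_assoc]]
        exact Subgroup.mul_mem _ (Subgroup.mem_sup_left (A.inv_mem (hcom' g)))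
          (Subgroup.mem_sup_right (Subgroup.mem_zpowers t))
      exact hle hb⟩
    have helt : ∀ b ∈ A ⊔ Subgroup.zpowers t, ∃ a ∈ A, ∃ i : ℤ, a * t ^ i = b := fun b hb => by
      obtain ⟨a, ha, z, hz, rfl⟩ := Subgroup.mem_sup_of_normal_left.1 hb
      obtain ⟨i, rfl⟩ := Subgroup.mem_zpowers_iff.1 hz
      exact ⟨a, ha, i, rfl⟩
    have hti : ∀ a ∈ A, ∀ i : ℤ, Commute (t ^ i) a := fun a ha i => (show Commute t a from htA a ha).zpow_left i
    refine htA' (hmax ⟨hBn, sup_le hAP (Subgroup.zpowers_le.2 htP), ?_, ?_⟩ le_sup_left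
      (Subgroup.mem_sup_right (Subgroup.mem_zpowers t)))
    · intro b hb b' hb'
      obtain ⟨a, ha, i, rfl⟩ := helt b hb
      obtain ⟨a', ha', i', rfl⟩ := helt b' hb'
      exact (Commute.mul_left (Commute.mul_right (hAc a ha a' ha') ((hti a ha i').symm))
        (Commute.mul_right (hti a' ha' i) ((Commute.refl t).zpow_zpow i i'))).eq
    · intro b hb
      obtain ⟨a, ha, i, rfl⟩ := helt b hb
      rw [((hti a ha i).symm).mul_pow, hA4 a ha, one_mul, ← zpow_natCast, ← zpow_mul, mul_comm, zpow_mul,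
        zpow_natCast, ht4, one_zpow]

end CfsgLib.GrossLength
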