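import Cfsg.Agent.GrossLength.Classes
import Cfsg.Agent.GrossLength.Group

/-!
Bottom powers of exceptional elements of a common `2`-group commute on a group of class two.
-/

set_option autoImplicit false
set_option linter.style.haveILetI false
set_option linter.unusedSectionVars false

namespace CfsgLib.GrossLength

open CfsgLib.HallHigmanB
open scoped commutatorElement

section Period

variable {k : Type*} [Field k] [IsAlgClosed k] [CharP k 2] {G : Type*} [Group G] [Finite G] {V : Type*}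
  [AddCommGroup V] [Module k V] [FiniteDimensional k V] {ρ : G →* Module.End k V}

/-- An exceptional element fixes, by a proper power, the class of every simple submodule it permutes. -/
theorem exists_period {M : Subgroup G} {W : Submodule k V} (hW : SimpleSub ρ M W) {g : G}
    (hgM : g ∈ Subgroup.normalizer (M : Set G)) {n : ℕ} (hgn : g ^ 2 ^ n = 1)
    (hdef : (ρ g - 1) ^ (2 ^ n - 1) = 0) :
    ∃ j < n, ∃ U₀, SimpleSub ρ M U₀ ∧ Iso ρ M W U₀ ∧ U₀.map (ρ (g ^ 2 ^ j)) = U₀ ∧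
      ∀ v ∈ U₀, ((ρ (g ^ 2 ^ j) - 1) ^ (2 ^ (n - j) - 1) : Module.End k V) v = 0 := by
  classical
  haveI : Fact (Nat.Prime 2) := ⟨Nat.prime_two⟩
  have hN : ∀ i : ℕ, g ^ i ∈ Subgroup.normalizer (M : Set G) := fun i => pow_mem hgM i
  have hid : ∀ U : Submodule k V, U.map (ρ 1) = U := fun U => by rw [map_one, Module.End.one_eq_id, Submodule.map_id]
  have hex : ∃ i, 0 < i ∧ Iso ρ M W (W.map (ρ (g ^ i))) :=
    ⟨2 ^ n, pow_pos two_pos n, by rw [hgn, hid]; exact iso_refl M W⟩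
  obtain ⟨m, ⟨hm0, hmiso⟩, hmmin⟩ : ∃ m, (0 < m ∧ Iso ρ M W (W.map (ρ (g ^ m)))) ∧
      ∀ i < m, ¬ (0 < i ∧ Iso ρ M W (W.map (ρ (g ^ i)))) :=
    ⟨Nat.find hex, Nat.find_spec hex, fun i hi => Nat.find_min hex hi⟩
  have hmdvd : m ∣ 2 ^ n := by
    have hmul : ∀ i, Iso ρ M W (W.map (ρ (g ^ (m * i)))) := by
      intro i
      induction i with
      | zero => rw [mul_zero, pow_zero, hid]; exact iso_refl M W
      | succ i IH =>
        have h1 := iso_map hW.1 IH (hN m)
        rw [map_rho_mul, ← pow_add, show m + m * i = m * (i + 1) by ring] at h1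
        exact iso_trans hmiso h1
    have h1 := iso_map hW.1 (hmul (2 ^ n / m)) (hN (2 ^ n % m))
    rw [map_rho_mul, ← pow_add, Nat.mod_add_div, hgn, hid] at h1
    have h2 := iso_symm (simple_map hW (hN _)).1 h1
    by_contra hnd
    exact hmmin _ (Nat.mod_lt _ hm0) ⟨Nat.pos_of_ne_zero fun h0 => hnd (Nat.dvd_of_mod_eq_zero h0), h2⟩
  obtain ⟨j, hjn, rfl⟩ := (Nat.dvd_prime_pow Nat.prime_two).1 hmdvd
  obtain ⟨U₀, hU₀, -, hWU₀, hU₀g⟩ := exists_invariant hW (hN (2 ^ j)) hmiso (X := ⊤) le_top le_top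
  have hnon : ∀ i : Fin (2 ^ j), 0 < (i : ℕ) → ¬ Iso ρ M U₀ (U₀.map (ρ (g ^ (i : ℕ)))) := fun i hi h1 =>
    hmmin i i.2 ⟨hi, iso_trans hWU₀ (iso_trans h1
      (iso_symm (simple_map hW (hN _)).1 (iso_map hW.1 hWU₀ (hN _))))⟩
  haveI : Nontrivial V := by
    obtain ⟨v, -, hv⟩ := (Submodule.ne_bot_iff W).1 hW.2.1
    exact ⟨⟨v, 0, hv⟩⟩
  haveI : CharP (Module.End k V) 2 := charP_of_injective_algebraMap (algebraMap k (Module.End k V)).injective 2
  have hz : ∀ v ∈ U₀, ((ρ (g ^ 2 ^ j) - 1) ^ (2 ^ (n - j) - 1) : Module.End k V) v = 0 := by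
    intro v hv
    set h := g ^ 2 ^ j
    have hh1 : ρ h - 1 = (ρ g - 1) ^ 2 ^ j := by
      rw [sub_pow_char_pow_of_commute 2 j (Commute.one_right _), one_pow, map_pow]
    have hwU : ∀ i : ℕ, ((ρ h - 1) ^ i : Module.End k V) v ∈ U₀ := by
      intro i
      induction i with
      | zero => simpa using hv
      | succ i IH =>
        rw [pow_succ', Module.End.mul_apply, LinearMap.sub_apply, Module.End.one_apply]
        exact U₀.sub_mem (hU₀g ▸ ⟨_, IH, rfl⟩) IH
    set w := ((ρ h - 1) ^ (2 ^ (n - j) - 1) : Module.End k V) v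
    have hzero : (ρ g - 1) ^ (2 ^ j - 1 + 2 ^ j * (2 ^ (n - j) - 1)) = 0 := by
      refine pow_eq_zero_of_le ?_ hdef
      rw [Nat.mul_sub_one, ← pow_add, Nat.add_sub_cancel' hjn]
      have := Nat.pow_le_pow_right two_pos hjn
      have := pow_pos (two_pos (α := ℕ)) j
      omega
    have hsum : ∑ i : Fin (2 ^ j), ρ (g ^ (i : ℕ)) w = 0 := by
      rw [pow_add, pow_mul, ← hh1, ← geom_sum_eq_sub_one_pow (k := k) (p := 2) (ρ g) j] at hzero
      have h1 := LinearMap.congr_fun hzero v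
      rw [Module.End.mul_apply, LinearMap.zero_apply, LinearMap.sum_apply, ← Fin.sum_univ_eq_sum_range
        (fun i => ((ρ g) ^ i) w)] at h1
      simpa only [map_pow] using h1
    let i₀ : Fin (2 ^ j) := ⟨0, pow_pos two_pos j⟩
    set T : Fin (2 ^ j) → Submodule k V := fun i => U₀.map (ρ (g ^ (i : ℕ)))
    have hd : U₀ ⊓ (Finset.univ.erase i₀).sup T = ⊥ :=
      inf_sup_eq_bot (fun i => simple_map hU₀ (hN _)) hU₀ _ fun i hi => hnon i
        (Nat.pos_of_ne_zero fun h0 => (Finset.mem_erase.1 hi).1 (Fin.ext h0))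
    refine (Submodule.eq_bot_iff _).1 hd w ⟨hwU _, ?_⟩
    rw [← Finset.add_sum_erase _ _ (Finset.mem_univ i₀), pow_zero, map_one, Module.End.one_apply] at hsum
    rw [eq_neg_of_add_eq_zero_left hsum]
    exact Submodule.neg_mem _ (Submodule.sum_mem _ fun i hi => Finset.le_sup (f := T) hi ⟨w, hwU _, rfl⟩)
  refine ⟨j, hjn.lt_of_ne ?_, U₀, hU₀, hWU₀, hU₀g, hz⟩
  rintro rfl
  obtain ⟨v, hv, hv0⟩ := (Submodule.ne_bot_iff U₀).1 hU₀.2.1
  have := hz v hv
  rw [Nat.sub_self, pow_zero, Nat.sub_self, pow_zero, Module.End.one_apply] at this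
  exact hv0 this

/-- The bottom power of an exceptional element centralises the abelian groups of odd order it normalises. -/
theorem centralizes_abelian [Nontrivial V] (hρ : Function.Injective ρ) {e : ℕ} {g : G} (hg : g ^ 2 ^ (e + 1) = 1)
    (hdef : (ρ g - 1) ^ (2 ^ (e + 1) - 1) = 0) {q : ℕ} [hq : Fact q.Prime] (hq2 : q ≠ 2) {U : Subgroup G}
    (hU : IsPGroup q U) (hUc : ∀ a ∈ U, ∀ b ∈ U, a * b = b * a) (hgU : g ∈ Subgroup.normalizer (U : Set G)) :
    g ^ 2 ^ e ∈ Subgroup.centralizer (U : Set G) := by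
  haveI : Fact (Nat.Prime 2) := ⟨Nat.prime_two⟩
  by_cases h1 : g ^ 2 ^ e = 1
  · rw [h1]; exact one_mem _
  have hord := orderOf_eq_prime_pow h1 hg
  by_contra hcon
  rcases theorem_B_sub ρ hρ g (e + 1) hord e.succ_pos hq.out hq2 U hU hgU
    (fun hle => hcon (Subgroup.mem_centralizer_iff.2 fun a ha =>
      Subgroup.mem_centralizer_singleton_iff.1 (hle ha))) _ hdef with h | ⟨n₀, m, -, -, -, -, h5, -⟩
  · have := pow_pos (two_pos (α := ℕ)) (e + 1)
    omega
  · exact h5 hUc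

end Period

section Commute

variable {G : Type*} [Group G] (M : Subgroup G) [hMn : M.Normal]

/-- `M` modulo its centre. -/
abbrev Vd := M ⧸ (M ⊓ Subgroup.centralizer (M : Set G)).subgroupOf M

instance : ((M ⊓ Subgroup.centralizer (M : Set G)).subgroupOf M).Normal := ⟨fun d hd m => by
  rw [Subgroup.mem_subgroupOf] at hd ⊢
  have h1 : (m : G) * d = d * m := Subgroup.mem_centralizer_iff.1 hd.2 m m.2
  rwa [show ((m * d * m⁻¹ : M) : G) = d by simp [h1]]⟩

theorem map_conjNormal_centre (h : G) :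
    ((M ⊓ Subgroup.centralizer (M : Set G)).subgroupOf M).map (MulAut.conjNormal (H := M) h).toMonoidHom =
      (M ⊓ Subgroup.centralizer (M : Set G)).subgroupOf M := by
  have hn : (M ⊓ Subgroup.centralizer (M : Set G)).Normal := by
    haveI : (Subgroup.centralizer (M : Set G)).Normal := Subgroup.normal_centralizer
    exact Subgroup.normal_inf_normal _ _
  refine le_antisymm ?_ fun t ht => ?_
  · rintro _ ⟨t, ht, rfl⟩
    rw [Subgroup.mem_subgroupOf]
    show ((MulAut.conjNormal h t : M) : G) ∈ _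
    rw [MulAut.conjNormal_apply]
    exact hn.conj_mem _ ht h
  · refine ⟨(MulAut.conjNormal (H := M) h).symm t, ?_, by simp⟩
    rw [SetLike.mem_coe, Subgroup.mem_subgroupOf, MulAut.conjNormal_symm_apply]
    simpa using hn.conj_mem _ ht h⁻¹

/-- The action on `M` modulo its centre. -/
def centreAut : G →* MulAut (Vd M) where
  toFun h := QuotientGroup.congr _ _ (MulAut.conjNormal (H := M) h) (map_conjNormal_centre M h)
  map_one' := by
    refine MulEquiv.ext fun a => ?_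
    induction a using QuotientGroup.induction_on with
    | H t => exact congrArg QuotientGroup.mk (Subtype.ext (by simp))
  map_mul' a b := by
    refine MulEquiv.ext fun z => ?_
    induction z using QuotientGroup.induction_on with
    | H t => exact congrArg QuotientGroup.mk (Subtype.ext (by simp [mul_assoc]))

theorem centreAut_mk (h : G) (t : M) :
    centreAut M h (t : Vd M) = ((⟨h * t * h⁻¹, hMn.conj_mem _ t.2 _⟩ : M) : Vd M) :=
  congrArg QuotientGroup.mk (Subtype.ext (by simp))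

variable {M}

theorem exists_centre_of_mk_eq {a b : M} (h : (a : Vd M) = (b : Vd M)) :
    ∃ d ∈ M ⊓ Subgroup.centralizer (M : Set G), (b : G) = (a : G) * d :=
  ⟨(a : G)⁻¹ * b, Subgroup.mem_subgroupOf.1 (QuotientGroup.eq.1 h), by group⟩

theorem commutator_congr {a b d d' : G} (ha : a ∈ M) (hb : b ∈ M) (hd : d ∈ M ⊓ Subgroup.centralizer (M : Set G))
    (hd' : d' ∈ M ⊓ Subgroup.centralizer (M : Set G)) : ⁅a * d, b * d'⁆ = ⁅a, b⁆ := by
  have h1 : Commute d b := (Subgroup.mem_centralizer_iff.1 hd.2 b hb).symm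
  have h2 : Commute d d' := (Subgroup.mem_centralizer_iff.1 hd.2 d' hd'.1).symm
  have h3 : Commute d' (a⁻¹) := (Subgroup.mem_centralizer_iff.1 hd'.2 _ (M.inv_mem ha)).symm
  rw [commutatorElement_def, commutatorElement_def]
  calc a * d * (b * d') * (a * d)⁻¹ * (b * d')⁻¹ = a * (d * (b * d') * d⁻¹) * a⁻¹ * d'⁻¹ * b⁻¹ := by group
    _ = a * (b * d') * a⁻¹ * d'⁻¹ * b⁻¹ := by rw [((h1.mul_right h2)).eq, mul_inv_cancel_right]
    _ = a * b * (d' * a⁻¹) * d'⁻¹ * b⁻¹ := by group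
    _ = a * b * a⁻¹ * b⁻¹ := by rw [h3.eq]; group

theorem commutator_inv_right' (hc : ∀ a ∈ M, ∀ b ∈ M, ⁅a, b⁆ ∈ Subgroup.centralizer (M : Set G)) {a b : G}
    (ha : a ∈ M) (hb : b ∈ M) : ⁅a, b⁻¹⁆ = ⁅a, b⁆⁻¹ := by
  rw [commutatorElement_inv]
  have h1 : b⁻¹ * ⁅b, a⁆ = ⁅b, a⁆ * b⁻¹ := Subgroup.mem_centralizer_iff.1 (hc b hb a ha) _ (M.inv_mem hb)
  calc ⁅a, b⁻¹⁆ = b⁻¹ * ⁅b, a⁆ * b := by rw [commutatorElement_def, commutatorElement_def]; group
    _ = ⁅b, a⁆ := by rw [h1, inv_mul_cancel_right]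

variable [Finite G] {q : ℕ} [hq : Fact q.Prime]

theorem eq_one_of_eq_inv (hq2 : q ≠ 2) (hMq : IsPGroup q M) {c : G} (hc : c ∈ M) (h : c = c⁻¹) : c = 1 := by
  obtain ⟨i, hi⟩ := hMq ⟨c, hc⟩
  refine orderOf_eq_one_iff.1 (Nat.eq_one_of_dvd_coprimes (((Nat.coprime_primes hq.out Nat.prime_two).2 hq2).pow_left i)
    (orderOf_dvd_of_pow_eq_one (congrArg Subtype.val hi)) (orderOf_dvd_of_pow_eq_one ?_))
  rw [pow_two]
  nth_rewrite 1 [h]
  exact inv_mul_cancel c

/-- Lifts of classes fixed and inverted by an operator centralising the centre commute. -/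
theorem commute_of_signs (hq2 : q ≠ 2) (hMq : IsPGroup q M)
    (hc : ∀ a ∈ M, ∀ b ∈ M, ⁅a, b⁆ ∈ Subgroup.centralizer (M : Set G)) {w : G}
    (hw : ∀ d ∈ M ⊓ Subgroup.centralizer (M : Set G), w * d * w⁻¹ = d) {a b : M}
    (ha : centreAut M w (a : Vd M) = (a : Vd M)) (hb : centreAut M w (b : Vd M) = (b : Vd M)⁻¹) :
    (a : G) * b = b * a := by
  rw [centreAut_mk] at ha
  rw [centreAut_mk, ← QuotientGroup.mk_inv] at hb
  obtain ⟨d, hd, ha'⟩ := exists_centre_of_mk_eq ha.symm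
  obtain ⟨d', hd', hb'⟩ := exists_centre_of_mk_eq hb.symm
  simp only [Subgroup.coe_inv] at ha' hb'
  set κ := ⁅(a : G), (b : G)⁆
  have hκ : κ ∈ M ⊓ Subgroup.centralizer (M : Set G) :=
    ⟨M.mul_mem (M.mul_mem (M.mul_mem a.2 b.2) (M.inv_mem a.2)) (M.inv_mem b.2), hc _ a.2 _ b.2⟩
  have h1 : κ = κ⁻¹ := by
    have h2 := hw κ hκ
    rw [conjugate_commutatorElement, ha', hb', commutator_congr a.2 (M.inv_mem b.2) hd hd',
      commutator_inv_right' hc a.2 b.2] at h2
    exact h2.symm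
  exact commutatorElement_eq_one_iff_mul_comm.1 (eq_one_of_eq_inv hq2 hMq hκ.1 h1)

/-- The bottom power of an exceptional element commutes with the operators of exponent `4` it normalises. -/
theorem commute_bottom (hq2 : q ≠ 2) (hMq : IsPGroup q M)
    (hc : ∀ a ∈ M, ∀ b ∈ M, ⁅a, b⁆ ∈ Subgroup.centralizer (M : Set G)) (e : ℕ) (x : G)
    (hx : x ^ 2 ^ (e + 1) = 1)
    (hyab : ∀ U : Subgroup G, IsPGroup q U → (∀ a ∈ U, ∀ b ∈ U, a * b = b * a) →
      x ∈ Subgroup.normalizer (U : Set G) → x ^ 2 ^ e ∈ Subgroup.centralizer (U : Set G))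
    (E : Subgroup G) (hEc : ∀ h ∈ E, ∀ h' ∈ E, centreAut M h * centreAut M h' = centreAut M h' * centreAut M h)
    (hE4 : ∀ h ∈ E, centreAut M h ^ 4 = 1)
    (hED : ∀ h ∈ E, ∀ d ∈ M ⊓ Subgroup.centralizer (M : Set G), h * d * h⁻¹ = d)
    (hxE : ∀ h ∈ E, x * h * x⁻¹ ∈ E) :
    ∀ h ∈ E, centreAut M (x ^ 2 ^ e) * centreAut M h = centreAut M h * centreAut M (x ^ 2 ^ e) := by
  classical
  set D := M ⊓ Subgroup.centralizer (M : Set G) with hD
  haveI hDn : D.Normal := by
    haveI : (Subgroup.centralizer (M : Set G)).Normal := Subgroup.normal_centralizer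
    exact Subgroup.normal_inf_normal _ _
  let _ : CommGroup (Vd M) := { (inferInstance : Group (Vd M)) with
    mul_comm := fun a b => by
      induction a using QuotientGroup.induction_on with
      | H a =>
      induction b using QuotientGroup.induction_on with
      | H b =>
      rw [← QuotientGroup.mk_mul, ← QuotientGroup.mk_mul, QuotientGroup.eq, Subgroup.mem_subgroupOf]
      have e : (((a * b)⁻¹ * (b * a) : M) : G) = ⁅(b : G)⁻¹, (a : G)⁻¹⁆ := by
        simp [commutatorElement_def, mul_assoc]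
      rw [e]
      exact ⟨M.mul_mem (M.mul_mem (M.mul_mem (M.inv_mem b.2) (M.inv_mem a.2)) (M.inv_mem (M.inv_mem b.2)))
        (M.inv_mem (M.inv_mem a.2)), hc _ (M.inv_mem b.2) _ (M.inv_mem a.2)⟩ }
  have hDq : IsPGroup q D := hMq.to_le inf_le_left
  set y := x ^ 2 ^ e with hy
  have hyD : ∀ d ∈ D, y * d * y⁻¹ = d := fun d hd => by
    rw [← Subgroup.mem_centralizer_iff.1 (hyab D hDq (fun a ha b hb => Subgroup.mem_centralizer_iff.1 hb.2 a ha.1)
      (by rw [Subgroup.normalizer_eq_top_iff.2 hDn]; exact Subgroup.mem_top x)) d hd, mul_inv_cancel_right]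
  set Ψ := centreAut M with hΨ
  have happ : ∀ (g g' : G) (a : Vd M), Ψ (g * g') a = Ψ g (Ψ g' a) := fun g g' a => by rw [map_mul, MulAut.mul_apply]
  have hsq1 : ∀ a : Vd M, a = a⁻¹ → a = 1 := by
    intro a ha
    obtain ⟨i, hi⟩ := (hMq.to_quotient (D.subgroupOf M)) a
    refine orderOf_eq_one_iff.1 (Nat.eq_one_of_dvd_coprimes
      (((Nat.coprime_primes hq.out Nat.prime_two).2 hq2).pow_left i) (orderOf_dvd_of_pow_eq_one hi)
      (orderOf_dvd_of_pow_eq_one ?_))
    rw [pow_two]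
    nth_rewrite 1 [ha]
    exact inv_mul_cancel a
  have hEi : ∀ (i : ℕ), ∀ h ∈ E, x ^ i * h * (x ^ i)⁻¹ ∈ E := by
    intro i
    induction i with
    | zero => intro h hh; simpa using hh
    | succ i IH =>
      intro h hh
      rw [show x ^ (i + 1) * h * (x ^ (i + 1))⁻¹ = x * (x ^ i * h * (x ^ i)⁻¹) * x⁻¹ by rw [pow_succ']; group]
      exact hxE _ (IH h hh)
  have hEi' : ∀ (i : ℕ), ∀ h ∈ E, (x ^ i)⁻¹ * h * x ^ i ∈ E := by
    intro i h hh
    have h1 := hEi (i * (2 ^ (e + 1) - 1)) h hh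
    rwa [show x ^ (i * (2 ^ (e + 1) - 1)) = (x ^ i)⁻¹ by
      refine eq_inv_of_mul_eq_one_left ?_
      rw [← pow_add, show i * (2 ^ (e + 1) - 1) + i = i * 2 ^ (e + 1) by
        rw [← Nat.mul_succ, Nat.succ_eq_add_one, Nat.sub_add_cancel (Nat.one_le_pow _ _ two_pos)],
        mul_comm, pow_mul, hx, one_pow], inv_inv] at h1
  -- vectors of a pure type
  let good : Vd M → Prop := fun a => ∀ h ∈ E, Ψ h a = a ∨ Ψ h a = a⁻¹ ∨ Ψ h (Ψ h a) = a⁻¹
  let same : Vd M → Vd M → Prop := fun a b => ∀ h ∈ E, (Ψ h a = a → Ψ h b = b) ∧ (Ψ h a = a⁻¹ → Ψ h b = b⁻¹) ∧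
    (Ψ h (Ψ h a) = a⁻¹ → Ψ h (Ψ h b) = b⁻¹)
  have hgoodx : ∀ (i : ℕ) a, good a → good (Ψ (x ^ i) a) := by
    intro i a ha h hh
    have hc1 : ∀ b, Ψ h (Ψ (x ^ i) b) = Ψ (x ^ i) (Ψ ((x ^ i)⁻¹ * h * x ^ i) b) := fun b => by
      rw [← happ, ← happ]; congr 2; group
    rcases ha _ (hEi' i h hh) with h1 | h1 | h1
    · exact Or.inl (by rw [hc1, h1])
    · exact Or.inr (Or.inl (by rw [hc1, h1, map_inv]))
    · exact Or.inr (Or.inr (by rw [hc1, hc1, h1, map_inv]))
  have hsqE : ∀ h ∈ E, h * h ∈ E := fun h hh => E.mul_mem hh hh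
  have horth : ∀ a b : M, good (a : Vd M) → good (b : Vd M) → ¬ same (a : Vd M) (b : Vd M) →
      (a : G) * b = b * a := by
    intro a b ha hb hns
    by_cases ha0 : (a : Vd M) = 1
    · rw [QuotientGroup.eq_one_iff, Subgroup.mem_subgroupOf] at ha0
      exact (Subgroup.mem_centralizer_iff.1 ha0.2 _ b.2).symm
    obtain ⟨h, hns⟩ := not_forall.1 hns
    obtain ⟨hh, hns⟩ := Classical.not_imp.1 hns
    have hne : ¬ (a : Vd M) = (a : Vd M)⁻¹ := fun e => ha0 (hsq1 _ e)
    rcases ha h hh with ha1 | ha1 | ha1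
    · have h2 : Ψ h (Ψ h (a : Vd M)) = (a : Vd M) := by rw [ha1, ha1]
      rcases hb h hh with h1 | h1 | h1
      · exact absurd ⟨fun _ => h1, fun e => absurd (ha1.symm.trans e) hne, fun e => absurd (h2.symm.trans e) hne⟩ hns
      · exact commute_of_signs hq2 hMq hc (hED h hh) ha1 h1
      · exact commute_of_signs hq2 hMq hc (hED _ (hsqE h hh)) (by rw [← hΨ, happ, h2]) (by rw [← hΨ, happ, h1])
    · have h2 : Ψ h (Ψ h (a : Vd M)) = (a : Vd M) := by rw [ha1, map_inv, ha1, inv_inv]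
      rcases hb h hh with h1 | h1 | h1
      · exact (commute_of_signs hq2 hMq hc (hED h hh) h1 ha1).symm
      · exact absurd ⟨fun e => absurd (e.symm.trans ha1) hne, fun _ => h1, fun e => absurd (h2.symm.trans e) hne⟩ hns
      · exact commute_of_signs hq2 hMq hc (hED _ (hsqE h hh)) (by rw [← hΨ, happ, h2]) (by rw [← hΨ, happ, h1])
    · have hne1 : ¬ Ψ h (a : Vd M) = (a : Vd M) := fun e => hne (by rw [e, e] at ha1; exact ha1)
      have hne2 : ¬ Ψ h (a : Vd M) = (a : Vd M)⁻¹ := fun e => hne (by rw [e, map_inv, e, inv_inv] at ha1; exact ha1)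
      rcases hb h hh with h1 | h1 | h1
      · exact (commute_of_signs hq2 hMq hc (hED _ (hsqE h hh)) (by rw [← hΨ, happ, h1, h1])
          (by rw [← hΨ, happ, ha1])).symm
      · exact (commute_of_signs hq2 hMq hc (hED _ (hsqE h hh)) (by rw [← hΨ, happ, h1, map_inv, h1, inv_inv])
          (by rw [← hΨ, happ, ha1])).symm
      · exact absurd ⟨fun e => absurd e hne1, fun e => absurd e hne2, fun _ => h1⟩ hns
  -- the classes of a good vector are fixed by the operator conjugated by `y`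
  have hgood : ∀ a, good a → ∀ h ∈ E, Ψ (y * h * y⁻¹) a = Ψ h a := by
    intro a ha
    by_cases hcase : ∃ j : ℕ, 0 < j ∧ j < 2 ^ (e + 1) ∧ j ≠ 2 ^ e ∧ same a (Ψ (x ^ j) a)
    · obtain ⟨j, hj0, hjlt, hjM, hsame⟩ := hcase
      -- operators conjugated by `x ^ j` have the same type at `a`
      have htype : ∀ h ∈ E, (Ψ h a = a → Ψ (x ^ j * h * (x ^ j)⁻¹) a = a) ∧
          (Ψ h a = a⁻¹ → Ψ (x ^ j * h * (x ^ j)⁻¹) a = a⁻¹) ∧
          (Ψ h (Ψ h a) = a⁻¹ → Ψ (x ^ j * h * (x ^ j)⁻¹) (Ψ (x ^ j * h * (x ^ j)⁻¹) a) = a⁻¹) := by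
        intro h hh
        set h₁ := x ^ j * h * (x ^ j)⁻¹ with hh₁
        have hh1 : h₁ ∈ E := hEi j h hh
        have hc1 : ∀ b, Ψ h₁ (Ψ (x ^ j) b) = Ψ (x ^ j) (Ψ h b) := fun b => by
          rw [← happ, ← happ]; congr 2; rw [hh₁]; group
        obtain ⟨s1, s2, s3⟩ := hsame h₁ hh1
        by_cases ha0 : a = 1
        · simp [ha0]
        have hne : ¬ a = a⁻¹ := fun e => ha0 (hsq1 _ e)
        have hinj : ∀ {b c : Vd M}, Ψ (x ^ j) b = Ψ (x ^ j) c → b = c := fun e => (Ψ (x ^ j)).injective e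
        rcases ha h₁ hh1 with h1 | h1 | h1
        · have h2 : Ψ h a = a := hinj (by rw [← hc1]; exact s1 h1)
          refine ⟨fun _ => h1, fun e => absurd (h2.symm.trans e) hne, fun e => ?_⟩
          rw [h2, h2] at e
          exact absurd e hne
        · have h2 : Ψ h a = a⁻¹ := hinj (by rw [← hc1, map_inv]; exact s2 h1)
          refine ⟨fun e => absurd (e.symm.trans h2) hne, fun _ => h1, fun e => ?_⟩
          rw [h2, map_inv, h2, inv_inv] at e
          exact absurd e hne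
        · have h2 : Ψ h (Ψ h a) = a⁻¹ := hinj (by rw [← hc1, ← hc1, map_inv]; exact s3 h1)
          refine ⟨fun e => ?_, fun e => ?_, fun _ => h1⟩
          · rw [e, e] at h2; exact absurd h2 hne
          · rw [e, map_inv, e, inv_inv] at h2; exact absurd h2 hne
      have htwice : ∀ h ∈ E, Ψ (x ^ (j + j) * h * (x ^ (j + j))⁻¹) a = Ψ h a := by
        intro h hh
        set h₁ := x ^ j * h * (x ^ j)⁻¹ with hh₁
        have hh1 : h₁ ∈ E := hEi j h hh
        have e2 : x ^ (j + j) * h * (x ^ (j + j))⁻¹ = x ^ j * h₁ * (x ^ j)⁻¹ := by rw [hh₁, pow_add]; group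
        rw [e2]
        rcases ha h hh with h1 | h1 | h1
        · rw [(htype h₁ hh1).1 ((htype h hh).1 h1), h1]
        · rw [(htype h₁ hh1).2.1 ((htype h hh).2.1 h1), h1]
        · have ha1 := (htype h hh).2.2 h1
          have hcm : ∀ g ∈ E, ∀ g' ∈ E, ∀ b, Ψ g (Ψ g' b) = Ψ g' (Ψ g b) := fun g hg g' hg' b => by
            rw [← MulAut.mul_apply, hEc g hg g' hg', MulAut.mul_apply]
          have hinvE : Ψ h⁻¹ a = (Ψ h a)⁻¹ := by
            have h9 : Ψ h⁻¹ a⁻¹ = Ψ h a := by rw [← h1, ← happ, inv_mul_cancel, map_one, MulAut.one_apply]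
            rw [← h9, ← map_inv, inv_inv]
          have h₂E : x ^ j * h₁ * (x ^ j)⁻¹ ∈ E := hEi j h₁ hh1
          rcases ha (h⁻¹ * h₁) (E.mul_mem (E.inv_mem hh) hh1) with h3 | h3 | h3
          · have h4 : Ψ h₁ a = Ψ h a := by
              rw [happ] at h3
              calc Ψ h₁ a = Ψ h (Ψ h⁻¹ (Ψ h₁ a)) := by rw [← happ h h⁻¹, mul_inv_cancel, map_one, MulAut.one_apply]
                _ = Ψ h a := by rw [h3]
            have h5 := (htype _ (E.mul_mem (E.inv_mem hh) hh1)).1 h3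
            rw [show x ^ j * (h⁻¹ * h₁) * (x ^ j)⁻¹ = h₁⁻¹ * (x ^ j * h₁ * (x ^ j)⁻¹) by rw [hh₁]; group, happ] at h5
            calc Ψ (x ^ j * h₁ * (x ^ j)⁻¹) a = Ψ h₁ (Ψ h₁⁻¹ (Ψ (x ^ j * h₁ * (x ^ j)⁻¹) a)) := by
                  rw [← happ h₁ h₁⁻¹, mul_inv_cancel, map_one, MulAut.one_apply]
              _ = Ψ h a := by rw [h5, h4]
          · have h4 : Ψ h₁ a = (Ψ h a)⁻¹ := by
              rw [happ] at h3
              calc Ψ h₁ a = Ψ h (Ψ h⁻¹ (Ψ h₁ a)) := by rw [← happ h h⁻¹, mul_inv_cancel, map_one, MulAut.one_apply]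
                _ = (Ψ h a)⁻¹ := by rw [h3, map_inv]
            have h5 := (htype _ (E.mul_mem (E.inv_mem hh) hh1)).2.1 h3
            rw [show x ^ j * (h⁻¹ * h₁) * (x ^ j)⁻¹ = h₁⁻¹ * (x ^ j * h₁ * (x ^ j)⁻¹) by rw [hh₁]; group, happ] at h5
            calc Ψ (x ^ j * h₁ * (x ^ j)⁻¹) a = Ψ h₁ (Ψ h₁⁻¹ (Ψ (x ^ j * h₁ * (x ^ j)⁻¹) a)) := by
                  rw [← happ h₁ h₁⁻¹, mul_inv_cancel, map_one, MulAut.one_apply]
              _ = Ψ h a := by rw [h5, map_inv, h4, inv_inv]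
          · have e : a = a⁻¹ := by
              have hv : Ψ h⁻¹ (Ψ h⁻¹ a) = a⁻¹ := by
                rw [hinvE, map_inv (Ψ h⁻¹) (Ψ h a), ← happ, inv_mul_cancel, map_one, MulAut.one_apply]
              rw [happ h⁻¹ h₁, happ h⁻¹ h₁, hcm h₁ hh1 h⁻¹ (E.inv_mem hh), ha1, map_inv (Ψ h⁻¹) a, map_inv (Ψ h⁻¹) (Ψ h⁻¹ a), hv, inv_inv] at h3
              exact h3
            rw [hsq1 a e, map_one, map_one]
      obtain ⟨c, w, hw, hjc⟩ : ∃ c w, ¬ 2 ∣ w ∧ j = 2 ^ c * w :=
        Nat.exists_eq_pow_mul_and_not_dvd hj0.ne' 2 (by norm_num)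
      have hce : c < e := by
        have hw0 : 0 < w := Nat.pos_of_ne_zero fun h0 => hw (h0 ▸ dvd_zero 2)
        rcases lt_or_ge c e with h1 | h1
        · exact h1
        rcases eq_or_lt_of_le h1 with rfl | h1
        · refine absurd ?_ hjM
          have : w < 2 := by
            rw [hjc, pow_succ] at hjlt
            exact Nat.lt_of_mul_lt_mul_left hjlt
          rw [hjc, show w = 1 by omega, mul_one]
        · have := Nat.pow_le_pow_right two_pos (show e + 1 ≤ c by omega)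
          have := Nat.le_mul_of_pos_right (2 ^ c) hw0
          omega
      have hmul : ∀ l : ℕ, ∀ h ∈ E, Ψ (x ^ (l * (j + j)) * h * (x ^ (l * (j + j)))⁻¹) a = Ψ h a := by
        intro l
        induction l with
        | zero => intro h _; simp
        | succ l IH =>
          intro h hh
          rw [← htwice h hh, ← IH _ (hEi (j + j) h hh)]
          congr 2
          rw [Nat.succ_mul, pow_add]
          group
      have hly : x ^ (2 ^ (e - 1 - c) * (j + j)) = y := by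
        obtain ⟨w', rfl⟩ : Odd w := Nat.not_even_iff_odd.1 fun h0 => hw h0.two_dvd
        have h2 : 2 ^ (e - 1 - c) * (j + j) = 2 ^ e + 2 ^ (e + 1) * w' := by
          rw [hjc]
          have h3 : 2 ^ (e - 1 - c) * 2 ^ c * 2 = 2 ^ e := by rw [← pow_add, ← pow_succ]; congr 1; omega
          calc _ = 2 ^ (e - 1 - c) * 2 ^ c * 2 * (2 * w' + 1) := by ring
            _ = _ := by rw [h3, pow_succ]; ring
        rw [h2, pow_add, pow_mul, hx, one_pow, mul_one]
      intro h hh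
      have h9 := hmul (2 ^ (e - 1 - c)) h hh
      rwa [hly] at h9
    · -- all translates of a lift of `a` commute
      push Not at hcase
      have hfixgood : ∀ b, good b → (∀ j : ℕ, 0 < j → j < 2 ^ (e + 1) → j ≠ 2 ^ e → ¬ same b (Ψ (x ^ j) b)) →
          Ψ y b = b := by
        intro b hb hb'
        obtain ⟨B, rfl⟩ := QuotientGroup.mk_surjective b
        let B' : ℕ → M := fun i => ⟨x ^ i * B * (x ^ i)⁻¹, hMn.conj_mem _ B.2 _⟩
        have hB' : ∀ i, ((B' i : M) : Vd M) = Ψ (x ^ i) (B : Vd M) := fun i => (centreAut_mk M _ _).symm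
        have hpair : ∀ i, i < 2 ^ (e + 1) → (B : G) * B' i = B' i * B := by
          intro i hi
          rcases Nat.eq_zero_or_pos i with rfl | hi0
          · simp [B']
          by_cases hiM : i = 2 ^ e
          · subst hiM
            show (B : G) * (y * B * y⁻¹) = y * B * y⁻¹ * B
            have hyy : y * y = 1 := by rw [hy, ← pow_add, ← two_mul, mul_comm, ← pow_succ, hx]
            set C := y * (B : G) * y⁻¹ with hC
            have hCM : C ∈ M := hMn.conj_mem _ B.2 _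
            have hκ : ⁅(B : G), C⁆ ∈ D :=
              ⟨M.mul_mem (M.mul_mem (M.mul_mem B.2 hCM) (M.inv_mem B.2)) (M.inv_mem hCM), hc _ B.2 _ hCM⟩
            have h2 := hyD _ hκ
            rw [conjugate_commutatorElement, ← hC, show y * C * y⁻¹ = (B : G) by
              rw [hC, show y * (y * (B : G) * y⁻¹) * y⁻¹ = (y * y) * B * (y * y)⁻¹ by group, hyy]; group,
              ← commutatorElement_inv (B : G) C] at h2
            exact commutatorElement_eq_one_iff_mul_comm.1 (eq_one_of_eq_inv hq2 hMq hκ.1 h2.symm)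
          · refine horth B (B' i) hb ?_ ?_
            · rw [hB']; exact hgoodx i _ hb
            · rw [hB']; exact hb' i hi0 hi hiM
        have hall : ∀ i l, (B' i : G) * B' l = B' l * B' i := by
          intro i l
          wlog hil : i ≤ l generalizing i l with H
          · exact (H l i (by omega)).symm
          have h1 := hpair ((l - i) % 2 ^ (e + 1)) (Nat.mod_lt _ (pow_pos two_pos _))
          have hpow : x ^ ((l - i) % 2 ^ (e + 1)) = (x ^ i)⁻¹ * x ^ l := by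
            rw [eq_inv_mul_iff_mul_eq]
            calc x ^ i * x ^ ((l - i) % 2 ^ (e + 1))
                = x ^ i * x ^ ((l - i) % 2 ^ (e + 1)) * (x ^ 2 ^ (e + 1)) ^ ((l - i) / 2 ^ (e + 1)) := by
                  rw [hx, one_pow, mul_one]
              _ = x ^ l := by rw [← pow_mul, mul_assoc, ← pow_add, Nat.mod_add_div, ← pow_add, Nat.add_sub_cancel' hil]
          simp only [B', hpow] at h1 ⊢
          calc _ = x ^ i * ((B : G) * ((x ^ i)⁻¹ * x ^ l * B * ((x ^ i)⁻¹ * x ^ l)⁻¹)) * (x ^ i)⁻¹ := by group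
            _ = _ := by rw [h1]; group
        set S : Set G := (D : Set G) ∪ Set.range fun i => (B' i : G)
        set U := Subgroup.closure S with hU
        have hSM : S ⊆ M := by
          rintro s (hs | ⟨i, rfl⟩)
          · exact hs.1
          · exact (B' i).2
        have hUq : IsPGroup q U := hMq.to_le ((Subgroup.closure_le M).2 hSM)
        have hUc : ∀ s ∈ U, ∀ t ∈ U, s * t = t * s := by
          have hScomm : ∀ s ∈ S, ∀ t ∈ S, s * t = t * s := by
            rintro s hs t ht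
            rcases hs with hs | ⟨i, rfl⟩
            · exact (Subgroup.mem_centralizer_iff.1 hs.2 t (hSM ht)).symm
            · rcases ht with ht | ⟨l, rfl⟩
              · exact Subgroup.mem_centralizer_iff.1 ht.2 _ (B' i).2
              · exact hall i l
          intro s hs t ht
          have h1 : U ≤ Subgroup.centralizer (S : Set G) := (Subgroup.closure_le _).2 fun s hs =>
            Subgroup.mem_centralizer_iff.2 fun t ht => hScomm t ht s hs
          have h2 : U ≤ Subgroup.centralizer (U : Set G) := (Subgroup.closure_le _).2 fun s hs =>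
            Subgroup.mem_centralizer_iff.2 fun t ht => (Subgroup.mem_centralizer_iff.1 (h1 ht) s hs).symm
          exact Subgroup.mem_centralizer_iff.1 (h2 ht) s hs
        have hxU : x ∈ Subgroup.normalizer (U : Set G) := by
          refine Subgroup.mem_normalizer_fintype fun s hs => ?_
          have h1 : U ≤ U.comap (MulAut.conj x).toMonoidHom := by
            refine (Subgroup.closure_le _).2 ?_
            rintro s (hs | ⟨i, rfl⟩)
            · exact Subgroup.subset_closure (Or.inl (hDn.conj_mem s hs x))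
            · refine Subgroup.subset_closure (Or.inr ⟨i + 1, ?_⟩)
              show x ^ (i + 1) * (B : G) * (x ^ (i + 1))⁻¹ = x * (x ^ i * B * (x ^ i)⁻¹) * x⁻¹
              rw [pow_succ']; group
          exact h1 hs
        have h1 := Subgroup.mem_centralizer_iff.1 (hyab U hUq hUc hxU) (B : G)
          (Subgroup.subset_closure (Or.inr ⟨0, by simp [B']⟩))
        rw [centreAut_mk]
        exact congrArg QuotientGroup.mk (Subtype.ext (by
          show y * (B : G) * y⁻¹ = B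
          rw [← h1, mul_inv_cancel_right]))
      intro h hh
      have hfa := hfixgood a ha hcase
      have hfi : Ψ y⁻¹ a = a := by
        nth_rewrite 1 [← hfa]
        rw [← happ, inv_mul_cancel, map_one, MulAut.one_apply]
      have hcm : ∀ g ∈ E, ∀ g' ∈ E, ∀ b, Ψ g (Ψ g' b) = Ψ g' (Ψ g b) := fun g hg g' hg' b => by
        rw [← MulAut.mul_apply, hEc g hg g' hg', MulAut.mul_apply]
      have hfh : Ψ y (Ψ h a) = Ψ h a := by
        refine hfixgood _ (fun g hg => ?_) fun j hj0 hjlt hjM hsame => hcase j hj0 hjlt hjM ?_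
        · rcases ha g hg with h1 | h1 | h1
          · exact Or.inl (by rw [hcm g hg h hh, h1])
          · exact Or.inr (Or.inl (by rw [hcm g hg h hh, h1, map_inv]))
          · exact Or.inr (Or.inr (by rw [hcm g hg h hh a, hcm g hg h hh, h1, map_inv]))
        · intro g hg
          obtain ⟨s1, s2, s3⟩ := hsame g hg
          set h' := x ^ j * h * (x ^ j)⁻¹ with hh'
          have hh'E : h' ∈ E := hEi j h hh
          have hb : Ψ (x ^ j) (Ψ h a) = Ψ h' (Ψ (x ^ j) a) := by rw [← happ, ← happ]; congr 2; rw [hh']; group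
          have hk : ∀ b, Ψ g b = Ψ g b := fun _ => rfl
          refine ⟨fun e => ?_, fun e => ?_, fun e => ?_⟩
          · have h1 := s1 (by rw [hcm g hg h hh, e])
            rw [hb, hcm g hg h' hh'E] at h1
            exact (Ψ h').injective h1
          · have h1 := s2 (by rw [hcm g hg h hh, e, map_inv])
            rw [hb, hcm g hg h' hh'E, ← map_inv] at h1
            exact (Ψ h').injective h1
          · have h1 := s3 (by rw [hcm g hg h hh a, hcm g hg h hh, e, map_inv])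
            rw [hb, hcm g hg h' hh'E, hcm g hg h' hh'E, ← map_inv] at h1
            exact (Ψ h').injective h1
      rw [happ, happ, hfi, hfh]
  -- every vector is a product of good ones
  intro h hh
  suffices hall : ∀ a, Ψ (y * h * y⁻¹) a = Ψ h a by
    refine MulEquiv.ext fun a => ?_
    rw [MulAut.mul_apply, MulAut.mul_apply]
    have h1 := hall (Ψ y a)
    rwa [← happ, show y * h * y⁻¹ * y = y * h by group, happ] at h1
  haveI := Fintype.ofFinite E
  suffices hgen : ∀ (s : Finset E) (a : Vd M), (∀ g : E, g ∉ s → (Ψ (g : G) a = a ∨ Ψ (g : G) a = a⁻¹ ∨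
      Ψ (g : G) (Ψ (g : G) a) = a⁻¹)) → Ψ (y * h * y⁻¹) a = Ψ h a from
    fun a => hgen Finset.univ a fun g hg => absurd (Finset.mem_univ g) hg
  intro s
  induction s using Finset.induction_on with
  | empty => intro a ha; exact hgood a (fun g hg => ha ⟨g, hg⟩ (Finset.notMem_empty _)) h hh
  | insert g s hgs IH =>
    intro a ha
    set A₁ := Ψ (g : G) a
    set A₂ := Ψ (g : G) A₁
    set A₃ := Ψ (g : G) A₂
    have hA4 : Ψ (g : G) A₃ = a := by
      show Ψ (g : G) (Ψ (g : G) (Ψ (g : G) (Ψ (g : G) a))) = a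
      rw [← MulAut.mul_apply, ← MulAut.mul_apply, ← MulAut.mul_apply]
      have h1 := hE4 g g.2
      rw [pow_succ, pow_succ, pow_succ, pow_one] at h1
      rw [hΨ, h1, MulAut.one_apply]
    have hcm : ∀ g' : E, ∀ b, Ψ (g' : G) (Ψ (g : G) b) = Ψ (g : G) (Ψ (g' : G) b) := fun g' b => by
      rw [← MulAut.mul_apply, hEc g' g'.2 g g.2, MulAut.mul_apply]
    set P₁ := a * A₁ * A₂ * A₃ with hP₁
    set P₂ := a * A₁⁻¹ * A₂ * A₃⁻¹ with hP₂
    set P₃ := a * A₂⁻¹ with hP₃
    have hval : ∀ (φ : Vd M →* Vd M), (φ a = a → φ A₁ = A₁ → φ A₂ = A₂ → φ A₃ = A₃ →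
        φ P₁ = P₁ ∧ φ P₂ = P₂ ∧ φ P₃ = P₃) ∧ (φ a = a⁻¹ → φ A₁ = A₁⁻¹ → φ A₂ = A₂⁻¹ → φ A₃ = A₃⁻¹ →
        φ P₁ = P₁⁻¹ ∧ φ P₂ = P₂⁻¹ ∧ φ P₃ = P₃⁻¹) := fun φ =>
      ⟨fun e0 e1 e2 e3 => by simp [hP₁, hP₂, hP₃, e0, e1, e2, e3],
        fun e0 e1 e2 e3 => by simp only [hP₁, hP₂, hP₃, map_mul, map_inv, e0, e1, e2, e3, mul_inv, and_self]⟩
    have hpres : ∀ g' : E, g' ∉ insert g s → ∀ b ∈ ({P₁, P₂, P₃} : Set (Vd M)), (Ψ (g' : G) b = b ∨
        Ψ (g' : G) b = b⁻¹ ∨ Ψ (g' : G) (Ψ (g' : G) b) = b⁻¹) := by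
      intro g' hg' b hb
      have hstep : ∀ b c, Ψ (g' : G) b = c → Ψ (g' : G) (Ψ (g : G) b) = Ψ (g : G) c := fun b c e => by rw [hcm, e]
      have hstep2 : ∀ b, Ψ (g' : G) (Ψ (g' : G) b) = b⁻¹ →
          Ψ (g' : G) (Ψ (g' : G) (Ψ (g : G) b)) = (Ψ (g : G) b)⁻¹ := fun b e => by rw [hcm, hcm, e, map_inv]
      rcases ha g' hg' with h1 | h1 | h1
      · have f1 : Ψ (g' : G) A₁ = A₁ := hstep a a h1
        have f2 : Ψ (g' : G) A₂ = A₂ := hstep A₁ A₁ f1
        obtain ⟨e1, e2, e3⟩ := (hval (Ψ (g' : G)).toMonoidHom).1 h1 f1 f2 (hstep A₂ A₂ f2)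
        rcases hb with rfl | rfl | rfl
        exacts [Or.inl e1, Or.inl e2, Or.inl e3]
      · have f1 : Ψ (g' : G) A₁ = A₁⁻¹ := (hstep a a⁻¹ h1).trans (map_inv (Ψ (g : G)) a)
        have f2 : Ψ (g' : G) A₂ = A₂⁻¹ := (hstep A₁ A₁⁻¹ f1).trans (map_inv (Ψ (g : G)) A₁)
        obtain ⟨e1, e2, e3⟩ := (hval (Ψ (g' : G)).toMonoidHom).2 h1 f1 f2
          ((hstep A₂ A₂⁻¹ f2).trans (map_inv (Ψ (g : G)) A₂))
        rcases hb with rfl | rfl | rfl
        exacts [Or.inr (Or.inl e1), Or.inr (Or.inl e2), Or.inr (Or.inl e3)]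
      · have f1 : Ψ (g' : G) (Ψ (g' : G) A₁) = A₁⁻¹ := hstep2 a h1
        have f2 : Ψ (g' : G) (Ψ (g' : G) A₂) = A₂⁻¹ := hstep2 A₁ f1
        obtain ⟨e1, e2, e3⟩ := (hval ((Ψ (g' : G)) * (Ψ (g' : G))).toMonoidHom).2
          (show Ψ (g' : G) (Ψ (g' : G) a) = a⁻¹ from h1) f1 f2 (hstep2 A₂ f2)
        rcases hb with rfl | rfl | rfl
        exacts [Or.inr (Or.inr e1), Or.inr (Or.inr e2), Or.inr (Or.inr e3)]
    have hg1 : Ψ (g : G) P₁ = P₁ := by
      simp only [hP₁, map_mul, hA4]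
      show A₁ * A₂ * A₃ * a = _
      ac_rfl
    have hg2 : Ψ (g : G) P₂ = P₂⁻¹ := by
      simp only [hP₂, map_mul, map_inv, hA4]
      show A₁ * A₂⁻¹ * A₃ * a⁻¹ = _
      simp only [mul_inv, inv_inv]
      ac_rfl
    have hg3 : Ψ (g : G) (Ψ (g : G) P₃) = P₃⁻¹ := by
      simp only [hP₃, map_mul, map_inv]
      show A₂ * (Ψ (g : G) A₃)⁻¹ = _
      rw [hA4, mul_inv_rev, inv_inv]
    have hP : ∀ b ∈ ({P₁, P₂, P₃} : Set (Vd M)), (Ψ (g : G) b = b ∨ Ψ (g : G) b = b⁻¹ ∨
        Ψ (g : G) (Ψ (g : G) b) = b⁻¹) → Ψ (y * h * y⁻¹) b = Ψ h b := fun b hb hgb => IH b fun g' hg' => by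
      by_cases hgg : g' = g
      · rw [hgg]; exact hgb
      · exact hpres g' (by simp [hgg, hg']) b hb
    have k1 := hP P₁ (Or.inl rfl) (Or.inl hg1)
    have k2 := hP P₂ (Or.inr (Or.inl rfl)) (Or.inr (Or.inl hg2))
    have k3 := hP P₃ (Or.inr (Or.inr rfl)) (Or.inr (Or.inr hg3))
    have hsum : P₁ * P₂ * (P₃ * P₃) = a ^ 4 := by
      apply Additive.ofMul.injective
      simp only [hP₁, hP₂, hP₃, ofMul_mul, ofMul_inv, ofMul_pow]
      abel
    have k4 : (Ψ (y * h * y⁻¹) a) ^ 4 = (Ψ h a) ^ 4 := by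
      generalize Ψ (y * h * y⁻¹) = φ, Ψ h = ψ at k1 k2 k3 ⊢
      rw [← map_pow, ← map_pow, ← hsum, map_mul φ (P₁ * P₂), map_mul φ P₁, map_mul φ P₃, map_mul ψ (P₁ * P₂), map_mul ψ P₁, map_mul ψ P₃, k1, k2, k3]
    refine eq_of_mul_inv_eq_one ((hsq1 _ ?_))
    refine mul_inv_eq_one.1 ?_ |> fun e => e
    rw [inv_inv, ← pow_two]
    refine hsq1 _ (eq_inv_of_mul_eq_one_left ?_)
    rw [← pow_add, show 2 + 2 = 4 from rfl, mul_pow, inv_pow, k4, mul_inv_cancel]

end Commute

end CfsgLib.GrossLength
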