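import Cfsg.Agent.GrossLength.Main
import Cfsg.Agent.HallHigmanB.TopLayer
import Cfsg.Agent.HallHigmanB.TheoremA
import Cfsg.Agent.HallHigmanB.TwoStep

/-!
Gross's bound on the `2`-length of a solvable group.
-/

set_option autoImplicit false
set_option linter.style.haveILetI false

namespace CfsgLib.GrossLength

open CfsgLib.HallHigmanB CfsgLib.PCore CfsgLib.PLocalBasics
open scoped IsMulCommutative

universe u

variable {p : ℕ} [hp : Fact p.Prime]

/-- The representation on the top layer, in which every element of bounded order is exceptional. -/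
theorem exists_topLayer_rep {G : Type u} [Group G] [Finite G] (hs : Cfsg.IsPSolvable p G)
    (h0 : Cfsg.pPrimeCore p G = ⊥) :
    ∃ (V : Type u) (_ : AddCommGroup V) (_ : Module (ZMod p) V) (_ : Finite V)
      (ρ : G ⧸ Cfsg.pCore p G →* Module.End (ZMod p) V), Function.Injective ρ ∧
      ∀ (x : G) (n : ℕ), (∀ v ∈ Cfsg.pCore p G, (v * x) ^ p ^ n * (x ^ p ^ n)⁻¹ = 1) →
        (ρ (QuotientGroup.mk' (Cfsg.pCore p G) x) - 1) ^ (p ^ n - 1) = 0 := by
  classical
  set P := Cfsg.pCore p G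
  haveI hPn : P.Normal := Cfsg.pCore_normal p G
  set π := QuotientGroup.mk' (coreFrattini p G) with hπ
  set Vb := P.map π with hVb
  haveI hVn : Vb.Normal := hPn.map π (QuotientGroup.mk'_surjective _)
  have hPp := isPGroup_pCore p G
  have hfr : ∀ z : P, z ∈ frattini P → π (z : G) = 1 := fun z hz =>
    (QuotientGroup.eq_one_iff _).2 ⟨z, hz, rfl⟩
  haveI : IsMulCommutative Vb := ⟨⟨fun a b => by
    obtain ⟨_, a, ha, rfl⟩ := a
    obtain ⟨_, b, hb, rfl⟩ := b
    refine Subtype.ext ?_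
    show π a * π b = π b * π a
    have h1 := hfr ((⟨a, ha⟩ : P) * ⟨b, hb⟩ * ⟨a, ha⟩⁻¹ * ⟨b, hb⟩⁻¹)
      (CfsgLib.CoprimeAction.commutator_le_frattini' hPp
        (Subgroup.commutator_mem_commutator (Subgroup.mem_top _) (Subgroup.mem_top _)))
    rw [← mul_inv_eq_one, ← h1]
    simp [map_mul, map_inv, mul_assoc]⟩⟩
  have hexp : ∀ a : Vb, a ^ p = 1 := by
    rintro ⟨_, a, ha, rfl⟩
    refine Subtype.ext ?_
    show π a ^ p = 1
    rw [← map_pow]
    exact hfr ((⟨a, ha⟩ : P) ^ p) (CfsgLib.CoprimeAction.pow_mem_frattini hPp _)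
  haveI : Module (ZMod p) (Additive Vb) := AddCommGroup.zmodModule (n := p) (G := Additive Vb) fun a => by
    rw [← ofMul_toMul a, ← ofMul_pow, hexp]
    rfl
  let ρ₀ : G →* Module.End (ZMod p) (Additive Vb) := (CfsgLib.ExtraFpf.conjRep Vb p).comp
    (π.codRestrict (Subgroup.normalizer (Vb : Set (G ⧸ coreFrattini p G))) fun g => by
      rw [Subgroup.normalizer_eq_top_iff.2 hVn]; exact Subgroup.mem_top _)
  have hρ₀ : ∀ g : G, ∀ a : Additive Vb, ((Additive.toMul (ρ₀ g a) : Vb) : G ⧸ coreFrattini p G) =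
      π g * ((Additive.toMul a : Vb) : G ⧸ coreFrattini p G) * (π g)⁻¹ := fun g a => rfl
  have hker : ∀ g, ρ₀ g = 1 ↔ g ∈ P := fun g => by
    refine (CfsgLib.ExtraFpf.conjRep_eq_one Vb p _).trans ⟨fun h => centralizer_topLayer hs h0 h, fun h => ?_⟩
    refine Subgroup.mem_centralizer_iff.2 fun a ha => ?_
    exact congrArg Subtype.val (IsMulCommutative.is_comm.comm (⟨a, ha⟩ : Vb) ⟨π g, g, h, rfl⟩)
  let ρ : G ⧸ P →* Module.End (ZMod p) (Additive Vb) := QuotientGroup.lift P ρ₀ fun g hg => (hker g).2 hg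
  have hρx : ∀ g : G, ρ (QuotientGroup.mk' P g) = ρ₀ g := fun g => rfl
  have hρ : Function.Injective ρ := by
    rw [← MonoidHom.ker_eq_bot_iff, eq_bot_iff]
    intro a ha
    obtain ⟨g, rfl⟩ := QuotientGroup.mk'_surjective P a
    exact Subgroup.mem_bot.2 ((QuotientGroup.eq_one_iff g).2 ((hker g).1 ha))
  -- the sums of powers are products of conjugates
  have hsum : ∀ (x : G) (i : ℕ) (v : G) (hv : v ∈ P),
      ((Additive.toMul ((∑ j ∈ Finset.range i, ρ₀ x ^ j) (Additive.ofMul (⟨π v, v, hv, rfl⟩ : Vb))) : Vb) :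
        G ⧸ coreFrattini p G) = π ((v * x) ^ i * (x ^ i)⁻¹) := by
    intro x i v hv
    induction i with
    | zero => simp
    | succ i IH =>
      rw [Finset.sum_range_succ, LinearMap.add_apply, toMul_add, Subgroup.coe_mul, IH, ← map_pow, hρ₀]
      show π _ * (π (x ^ i) * π v * (π (x ^ i))⁻¹) = _
      rw [← map_inv, ← map_mul, ← map_mul, ← map_mul]
      congr 1
      rw [pow_succ (v * x), pow_succ x]
      group
  refine ⟨Additive Vb, inferInstance, inferInstance, inferInstance, ρ, hρ, fun x' n' hdef' => ?_⟩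
  by_cases hnt : Subsingleton (Additive Vb)
  · exact LinearMap.ext fun a => Subsingleton.elim _ _
  haveI : Nontrivial (Additive Vb) := not_subsingleton_iff_nontrivial.1 hnt
  haveI : CharP (Module.End (ZMod p) (Additive Vb)) p :=
    charP_of_injective_algebraMap (algebraMap (ZMod p) (Module.End (ZMod p) (Additive Vb))).injective p
  rw [← geom_sum_eq_sub_one_pow (k := ZMod p) (p := p) _ n', hρx]
  refine LinearMap.ext fun a => ?_
  obtain ⟨⟨_, v, hv, rfl⟩, rfl⟩ := Additive.ofMul.surjective a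
  apply Additive.toMul.injective
  refine Subtype.ext ?_
  rw [hsum x' (p ^ n') v hv, hdef' v hv, map_one]
  rfl

theorem pPrimePCore_le_upper (H : Type u) [Group H] [Finite H] :
    Cfsg.pPrimePCore p H ≤ (Cfsg.upperPSeries p H (2 * 1 + 1)).1 := by
  refine CfsgLib.PLengthProduct.le_upper_of_coprime_pow (pPrimePCore_normal p H) fun x hx =>
    ⟨1, Nat.coprime_one_left p, ?_⟩
  rw [pow_one]
  refine CfsgLib.PLengthProduct.le_upper_succ (pPrimePCore_normal p H) (fun y hy => ?_) hx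
  refine ⟨1, ?_, fun _ => Nat.coprime_one_left p, fun h => absurd (by decide) h⟩
  rw [pow_one]
  refine CfsgLib.PLengthProduct.le_upper_succ (pPrimePCore_normal p H) (fun z hz => ?_) hy
  obtain ⟨k, hk⟩ := isPGroup_pCore p (H ⧸ Cfsg.pPrimeCore p H) ⟨_, mem_pPrimePCore.1 hz⟩
  refine ⟨p ^ k, ?_, fun h => absurd h (by decide), fun _ => ⟨k, rfl⟩⟩
  rw [upperPSeries_one]
  refine (QuotientGroup.eq_one_iff _).1 ?_
  show QuotientGroup.mk' (Cfsg.pPrimeCore p H) (z ^ p ^ k) = 1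
  rw [map_pow]
  exact congrArg Subtype.val hk

theorem pow_mem_core {G : Type u} [Group G] [Finite G] [Group.IsSolvable G] (h0 : Cfsg.pPrimeCore 2 G = ⊥) (e : ℕ)
    (hexp : ∀ (P : Sylow 2 G), ∀ x ∈ (P : Subgroup G), x ^ 2 ^ (e + 1) = 1) (S : Sylow 2 (G ⧸ Cfsg.pCore 2 G))
    (x : G ⧸ Cfsg.pCore 2 G) (hx : x ∈ (S : Subgroup (G ⧸ Cfsg.pCore 2 G))) :
    x ^ 2 ^ e ∈ Cfsg.pPrimePCore 2 (G ⧸ Cfsg.pCore 2 G) := by
  haveI : Fact (Nat.Prime 2) := ⟨Nat.prime_two⟩
  haveI : (Cfsg.pCore 2 G).Normal := Cfsg.pCore_normal 2 G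
  by_cases hx1 : x ^ 2 ^ e = 1
  · rw [hx1]; exact one_mem _
  obtain ⟨V, _, _, _, ρ, hρ, hdef⟩ := exists_topLayer_rep (p := 2) (isPSolvable_of_isSolvable (G := G)) h0
  haveI : Group.IsSolvable (G ⧸ Cfsg.pCore 2 G) :=
    Group.isSolvable_of_surjective (f := QuotientGroup.mk' (Cfsg.pCore 2 G)) (QuotientGroup.mk'_surjective _)
  haveI : Nontrivial V := by
    by_contra hnt
    rw [not_nontrivial_iff_subsingleton] at hnt
    exact hx1 (hρ (LinearMap.ext fun a => Subsingleton.elim _ _))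
  haveI : Module.Finite (ZMod 2) V := Module.Finite.of_finite
  obtain ⟨φ, hφ⟩ := exists_baseChange (F := ZMod 2) (V := V)
  haveI : CharP (AlgebraicClosure (ZMod 2)) 2 :=
    charP_of_injective_algebraMap (algebraMap (ZMod 2) (AlgebraicClosure (ZMod 2))).injective 2
  haveI : Nonempty (Fin (Module.finrank (ZMod 2) V)) := ⟨⟨0, Module.finrank_pos⟩⟩
  refine bottom_mem_core (ρ := φ.toMonoidHom.comp ρ) (hφ.comp hρ) pCore_quotient e
    (exponent_quotient hexp _) (fun g hg => ?_) S x hx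
  obtain ⟨P, hP⟩ := (IsPGroup.of_card (G := Subgroup.zpowers g) (n := Nat.log 2 (orderOf g)) (by
    obtain ⟨l, -, hl⟩ := (Nat.dvd_prime_pow Nat.prime_two).1 (orderOf_dvd_of_pow_eq_one hg)
    rw [Nat.card_zpowers, hl, Nat.log_pow one_lt_two])).exists_le_sylow
  obtain ⟨P₀, rfl⟩ := Sylow.mapSurjective_surjective (QuotientGroup.mk'_surjective (Cfsg.pCore 2 G)) 2 P
  obtain ⟨g₀, hg₀, hgg⟩ := hP (Subgroup.mem_zpowers g)
  subst hgg
  show (φ (ρ _) - 1) ^ _ = 0
  rw [← map_one φ, ← map_sub, ← map_pow, hdef g₀ (e + 1) (fun v hv => by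
    rw [hexp P₀ _ (mul_mem (pCore_le_sylow P₀ hv) hg₀), hexp P₀ g₀ hg₀, inv_one, mul_one]), map_zero]

theorem pLengthLE_two_mul_add_one : ∀ (e : ℕ) (G : Type u) [Group G] [Finite G], Group.IsSolvable G →
    (∀ (P : Sylow 2 G), ∀ x ∈ (P : Subgroup G), x ^ 2 ^ (e + 1) = 1) → Cfsg.PLengthLE 2 (2 * e + 1) G := by
  haveI : Fact (Nat.Prime 2) := ⟨Nat.prime_two⟩
  intro e
  induction e with
  | zero =>
    intro G _ _ hG hexp
    haveI := hG
    haveI : (Cfsg.pPrimeCore 2 G).Normal := Cfsg.pPrimeCore_normal 2 G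
    rw [show 2 * 0 + 1 = 0 + (1 + 0) from rfl]
    refine CfsgLib.PLengthProduct.pLengthLE_add (Cfsg.pPrimeCore 2 G) (by rw [mul_zero, zero_add, upperPSeries_one]) ?_
    set G₁ := G ⧸ Cfsg.pPrimeCore 2 G
    haveI : Group.IsSolvable G₁ :=
      Group.isSolvable_of_surjective (f := QuotientGroup.mk' (Cfsg.pPrimeCore 2 G)) (QuotientGroup.mk'_surjective _)
    have hexp₁ := exponent_quotient hexp (Cfsg.pPrimeCore 2 G)
    haveI : (Cfsg.pCore 2 G₁).Normal := Cfsg.pCore_normal 2 G₁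
    refine CfsgLib.PLengthProduct.pLengthLE_add (Cfsg.pCore 2 G₁)
      (pCore_le_pPrimePCore.trans (pPrimePCore_le_upper G₁)) ?_
    refine top_le_iff.1 ?_
    rw [mul_zero, zero_add, upperPSeries_one]
    refine le_pPrimeCore_of_not_dvd inferInstance fun hd => ?_
    rw [Subgroup.card_top] at hd
    obtain ⟨x, hx⟩ := exists_prime_orderOf_dvd_card' 2 hd
    obtain ⟨x₀, rfl⟩ := QuotientGroup.mk'_surjective _ x
    obtain ⟨S, hS⟩ := (IsPGroup.of_card (G := Subgroup.zpowers (QuotientGroup.mk' (Cfsg.pCore 2 G₁) x₀)) (n := 1)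
      (by rw [Nat.card_zpowers, hx, pow_one])).exists_le_sylow
    obtain ⟨S₀, rfl⟩ := Sylow.mapSurjective_surjective (QuotientGroup.mk'_surjective (Cfsg.pCore 2 G₁)) 2 S
    obtain ⟨g, hg, hgx⟩ := hS (Subgroup.mem_zpowers _)
    obtain ⟨⟨n₀, q, m, h1, h2, hq, h3, h4, -⟩, -, -⟩ := deficient (p := 2) (isPSolvable_of_isSolvable (G := G₁))
      pPrimeCore_quotient g 1 (by rw [hgx, hx, pow_one]) one_pos fun v hv => by
        rw [hexp₁ S₀ _ (mul_mem (pCore_le_sylow S₀ hv) hg), hexp₁ S₀ g hg, inv_one, mul_one]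
        exact one_mem _
    rw [show n₀ = 1 by omega] at h4
    have := Nat.lt_of_lt_of_le hq.one_lt (Nat.le_self_pow (n := m) (by omega) q)
    omega
  | succ e IH =>
    intro G _ _ hG hexp
    haveI := hG
    haveI : (Cfsg.pPrimeCore 2 G).Normal := Cfsg.pPrimeCore_normal 2 G
    rw [← zero_add (2 * (e + 1) + 1)]
    refine CfsgLib.PLengthProduct.pLengthLE_add (Cfsg.pPrimeCore 2 G) (by rw [mul_zero, zero_add, upperPSeries_one]) ?_
    set G₁ := G ⧸ Cfsg.pPrimeCore 2 G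
    haveI : Group.IsSolvable G₁ :=
      Group.isSolvable_of_surjective (f := QuotientGroup.mk' (Cfsg.pPrimeCore 2 G)) (QuotientGroup.mk'_surjective _)
    have h0 : Cfsg.pPrimeCore 2 G₁ = ⊥ := pPrimeCore_quotient
    have hexp₁ := exponent_quotient hexp (Cfsg.pPrimeCore 2 G)
    haveI : (Cfsg.pCore 2 G₁).Normal := Cfsg.pCore_normal 2 G₁
    rw [show 2 * (e + 1) + 1 = 1 + (1 + (2 * e + 1)) by ring]
    refine CfsgLib.PLengthProduct.pLengthLE_add (Cfsg.pCore 2 G₁)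
      (pCore_le_pPrimePCore.trans (pPrimePCore_le_upper G₁)) ?_
    haveI : (Cfsg.pPrimePCore 2 (G₁ ⧸ Cfsg.pCore 2 G₁)).Normal := pPrimePCore_normal 2 _
    haveI : Group.IsSolvable (G₁ ⧸ Cfsg.pCore 2 G₁) :=
      Group.isSolvable_of_surjective (f := QuotientGroup.mk' (Cfsg.pCore 2 G₁)) (QuotientGroup.mk'_surjective _)
    refine CfsgLib.PLengthProduct.pLengthLE_add (Cfsg.pPrimePCore 2 (G₁ ⧸ Cfsg.pCore 2 G₁)) (pPrimePCore_le_upper _)
      (IH _ (Group.isSolvable_of_surjective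
        (f := QuotientGroup.mk' (Cfsg.pPrimePCore 2 (G₁ ⧸ Cfsg.pCore 2 G₁))) (QuotientGroup.mk'_surjective _))
        fun R => ?_)
    obtain ⟨S, rfl⟩ := Sylow.mapSurjective_surjective
      (QuotientGroup.mk'_surjective (Cfsg.pPrimePCore 2 (G₁ ⧸ Cfsg.pCore 2 G₁))) 2 R
    rintro _ ⟨x, hx, rfl⟩
    rw [← map_pow]
    exact (QuotientGroup.eq_one_iff _).2 (pow_mem_core h0 (e + 1) hexp₁ S x hx)

end CfsgLib.GrossLength
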