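import Cfsg.Agent.HallHigmanB.Main

/-!
The action on a group of operators modulo its scalars on a constituent.
-/

set_option autoImplicit false
set_option linter.style.haveILetI false
set_option linter.unusedSectionVars false

namespace CfsgLib.GrossLength

open CfsgLib.HallHigmanB
open scoped commutatorElement

variable {k : Type*} [Field k] {G : Type*} [Group G] {V : Type*} [AddCommGroup V] [Module k V]
  {ρ : G →* Module.End k V} {M : Subgroup G}

/-- The simple `M`-submodules. -/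
abbrev Simple (ρ : G →* Module.End k V) (M : Subgroup G) := {W : Submodule k V // SimpleSub ρ M W}

/-- The elements of `M` that are scalars on `W`. -/
def scalarSub (W : Simple ρ M) : Subgroup G where
  carrier := {t | t ∈ M ∧ ∃ c : k, ∀ w ∈ W.1, ρ t w = c • w}
  one_mem' := ⟨M.one_mem, 1, fun w _ => by simp⟩
  mul_mem' := by
    rintro a b ⟨ha, c, hc⟩ ⟨hb, d, hd⟩
    exact ⟨M.mul_mem ha hb, c * d, fun w hw => by
      rw [map_mul, Module.End.mul_apply, hd w hw, map_smul, hc w hw, smul_smul, mul_comm]⟩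
  inv_mem' := by
    rintro a ⟨ha, c, hc⟩
    refine ⟨M.inv_mem ha, c⁻¹, fun w hw => ?_⟩
    have h1 := inv_apply_apply (ρ := ρ) a w
    rw [hc w hw, map_smul] at h1
    rcases eq_or_ne c 0 with h0 | h0
    · rw [h0, zero_smul] at h1
      rw [← h1, map_zero, smul_zero]
    · exact (eq_inv_smul_iff₀ h0).2 h1

theorem scalarSub_le (W : Simple ρ M) : scalarSub W ≤ M := fun _ h => h.1

theorem iso_scalar {W W' : Submodule k V} (h : Iso ρ M W W') {t : G} (ht : t ∈ M) {c : k}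
    (hc : ∀ w ∈ W, ρ t w = c • w) : ∀ w ∈ W', ρ t w = c • w := by
  obtain ⟨f, hf, -, rfl⟩ := h
  rintro _ ⟨w, rfl⟩
  rw [← hf t ht w (c • w) (by rw [Submodule.coe_smul, hc w w.2]), map_smul]

theorem scalarSub_eq (W W' : Simple ρ M) (h : Iso ρ M W.1 W'.1) : scalarSub W = scalarSub W' := by
  ext t
  exact ⟨fun ⟨ht, c, hc⟩ => ⟨ht, c, iso_scalar h ht hc⟩,
    fun ⟨ht, c, hc⟩ => ⟨ht, c, iso_scalar (iso_symm W.2.1 h) ht hc⟩⟩

instance scalarSub_normal (W : Simple ρ M) : ((scalarSub W).subgroupOf M).Normal := ⟨by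
  rintro t ⟨ht, c, hc⟩ m
  refine ⟨(m * t * m⁻¹).2, c, fun w hw => ?_⟩
  show ρ ((m : G) * t * (m : G)⁻¹) w = _
  rw [map_mul, map_mul, Module.End.mul_apply, Module.End.mul_apply]
  rw [show (ρ (t : G)) (ρ (m : G)⁻¹ w) = c • ρ (m : G)⁻¹ w from hc _ (W.2.1 _ (M.inv_mem m.2) w hw), map_smul,
    apply_inv_apply]⟩

variable [hMn : M.Normal]

theorem mem_normalizer_M (g : G) : g ∈ Subgroup.normalizer (M : Set G) := by
  rw [Subgroup.normalizer_eq_top_iff.2 hMn]; exact Subgroup.mem_top g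

/-- The stabiliser of the isomorphism class of `W`. -/
def classFix (W : Simple ρ M) : Subgroup G where
  carrier := {h | Iso ρ M W.1 (W.1.map (ρ h))}
  one_mem' := by
    show Iso ρ M W.1 (W.1.map (ρ 1))
    rw [map_one, Module.End.one_eq_id, Submodule.map_id]
    exact iso_refl M W.1
  mul_mem' := by
    intro a b (ha : Iso ρ M W.1 _) (hb : Iso ρ M W.1 _)
    show Iso ρ M W.1 (W.1.map (ρ (a * b)))
    have h1 := iso_map W.2.1 hb (mem_normalizer_M a)
    rw [map_rho_mul] at h1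
    exact iso_trans ha h1
  inv_mem' := by
    intro a (ha : Iso ρ M W.1 _)
    have h1 := iso_map W.2.1 ha (mem_normalizer_M (M := M) a⁻¹)
    rw [map_rho_inv] at h1
    exact iso_symm (simple_map W.2 (mem_normalizer_M _)).1 h1

theorem classFix_eq (W W' : Simple ρ M) (h : Iso ρ M W.1 W'.1) : classFix W = classFix W' := by
  ext g
  have h' := iso_symm W.2.1 h
  exact ⟨fun hg => iso_trans h' (iso_trans hg (iso_map W.2.1 h (mem_normalizer_M g))),
    fun hg => iso_trans h (iso_trans hg (iso_map W'.2.1 h' (mem_normalizer_M g)))⟩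

theorem conj_scalar {W : Simple ρ M} {h : G} (hh : h ∈ classFix W) {t : G} (ht : t ∈ M) {c : k}
    (hc : ∀ w ∈ W.1, ρ t w = c • w) : ∀ w ∈ W.1, ρ (h * t * h⁻¹) w = c • w := by
  refine iso_scalar (iso_symm W.2.1 hh) (hMn.conj_mem t ht h) ?_
  rintro _ ⟨w, hw, rfl⟩
  rw [← map_smul, ← hc w hw, ← Module.End.mul_apply, ← map_mul, ← Module.End.mul_apply, ← map_mul]
  group

theorem conj_mem_scalarSub {W : Simple ρ M} {h : G} (hh : h ∈ classFix W) {t : G} (ht : t ∈ scalarSub W) :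
    h * t * h⁻¹ ∈ scalarSub W := by
  obtain ⟨htM, c, hc⟩ := ht
  exact ⟨hMn.conj_mem t htM h, c, conj_scalar hh htM hc⟩

/-- `M` modulo the scalars. -/
abbrev Tb (W : Simple ρ M) := M ⧸ (scalarSub W).subgroupOf M

theorem map_conjNormal (W : Simple ρ M) (h : classFix W) :
    ((scalarSub W).subgroupOf M).map (MulAut.conjNormal (H := M) (h : G)).toMonoidHom = (scalarSub W).subgroupOf M := by
  refine le_antisymm ?_ fun t ht => ?_
  · rintro _ ⟨t, ht, rfl⟩
    rw [Subgroup.mem_subgroupOf]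
    show ((MulAut.conjNormal (h : G) t : M) : G) ∈ scalarSub W
    rw [MulAut.conjNormal_apply]
    exact conj_mem_scalarSub h.2 ht
  · refine ⟨(MulAut.conjNormal (H := M) (h : G)).symm t, ?_, by simp⟩
    rw [SetLike.mem_coe, Subgroup.mem_subgroupOf, MulAut.conjNormal_symm_apply]
    simpa using conj_mem_scalarSub (h⁻¹).2 ht

/-- The action of the stabiliser of the class on `M` modulo the scalars. -/
def classAut (W : Simple ρ M) : classFix W →* MulAut (Tb W) where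
  toFun h := QuotientGroup.congr _ _ (MulAut.conjNormal (H := M) (h : G)) (map_conjNormal W h)
  map_one' := by
    refine MulEquiv.ext fun a => ?_
    induction a using QuotientGroup.induction_on with
    | H t => exact congrArg QuotientGroup.mk (Subtype.ext (by simp))
  map_mul' a b := by
    refine MulEquiv.ext fun z => ?_
    induction z using QuotientGroup.induction_on with
    | H t => exact congrArg QuotientGroup.mk (Subtype.ext (by simp [mul_assoc]))

theorem classAut_mk (W : Simple ρ M) (h : classFix W) (t : M) :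
    classAut W h (t : Tb W) = ((⟨(h : G) * t * (h : G)⁻¹, hMn.conj_mem _ t.2 _⟩ : M) : Tb W) :=
  congrArg QuotientGroup.mk (Subtype.ext (by simp))

theorem mk_eq_mk (W : Simple ρ M) {a b : M} : (a : Tb W) = (b : Tb W) ↔ (a : G)⁻¹ * b ∈ scalarSub W := by
  rw [QuotientGroup.eq, Subgroup.mem_subgroupOf]
  simp

/-- `a` and `b` commute on `W` up to the scalar `c`. -/
def Twist (W : Submodule k V) (ρ : G →* Module.End k V) (a b : G) (c : k) : Prop :=
  ∀ w ∈ W, ρ a (ρ b w) = c • ρ b (ρ a w)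

theorem Twist.unique {W : Simple ρ M} {a b : G} {c d : k} (h : Twist W.1 ρ a b c)
    (h' : Twist W.1 ρ a b d) : c = d := by
  obtain ⟨w, hw, hw0⟩ := (Submodule.ne_bot_iff W.1).1 W.2.2.1
  have h1 := (h w hw).symm.trans (h' w hw)
  refine sub_eq_zero.1 ((smul_eq_zero.1 (show (c - d) • ρ b (ρ a w) = 0 by rw [sub_smul, h1, sub_self])).resolve_right
    fun h0 => hw0 ?_)
  exact rho_injective (ρ := ρ) a (rho_injective (ρ := ρ) b (by rw [h0, map_zero, map_zero]))

theorem Twist.inv_left {W : Simple ρ M} {a b : G} {c : k} (ha : a ∈ M) (hb : b ∈ M) (h : Twist W.1 ρ a b c) :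
    c ≠ 0 ∧ Twist W.1 ρ a⁻¹ b c⁻¹ := by
  have hc : c ≠ 0 := by
    intro h0
    obtain ⟨w, hw, hw0⟩ := (Submodule.ne_bot_iff W.1).1 W.2.2.1
    have h1 := h w hw
    rw [h0, zero_smul] at h1
    exact hw0 (rho_injective (ρ := ρ) b (rho_injective (ρ := ρ) a (by rw [h1, map_zero, map_zero])))
  refine ⟨hc, fun w hw => ?_⟩
  have h1 := congrArg (ρ a⁻¹) (h (ρ a⁻¹ w) (W.2.1 _ (M.inv_mem ha) w hw))
  rw [inv_apply_apply, apply_inv_apply, map_smul] at h1
  rw [h1, inv_smul_smul₀ hc]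

theorem Twist.conj {W : Simple ρ M} {a b : G} {c : k} (ha : a ∈ M) (hb : b ∈ M) {h : G} (hh : h ∈ classFix W)
    (hab : Twist W.1 ρ a b c) : Twist W.1 ρ (h * a * h⁻¹) (h * b * h⁻¹) c := by
  obtain ⟨f, hf, -, hfr⟩ := iso_symm W.2.1 hh
  intro w hw
  obtain ⟨x₀, rfl⟩ : w ∈ LinearMap.range f := by rw [hfr]; exact hw
  obtain ⟨_, v, hv, rfl⟩ := x₀
  have hS := simple_map W.2 (mem_normalizer_M (M := M) h)
  have hA : ∀ {m : G}, m ∈ M → ∀ x : (W.1.map (ρ h) : Submodule k V), ∃ x' : (W.1.map (ρ h) : Submodule k V), (x' : V) = ρ m x ∧ f x' = ρ m (f x) := fun {m} hm x =>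
    ⟨⟨ρ m x, hS.1 m hm x x.2⟩, rfl, hf m hm x ⟨ρ m x, hS.1 m hm x x.2⟩ rfl⟩
  have ha' := hMn.conj_mem a ha h
  have hb' := hMn.conj_mem b hb h
  obtain ⟨x₁, e₁, f₁⟩ := hA hb' ⟨ρ h v, v, hv, rfl⟩
  obtain ⟨x₂, e₂, f₂⟩ := hA ha' x₁
  obtain ⟨x₃, e₃, f₃⟩ := hA ha' ⟨ρ h v, v, hv, rfl⟩
  obtain ⟨x₄, e₄, f₄⟩ := hA hb' x₃
  rw [← f₁, ← f₂, ← f₃, ← f₄, ← map_smul]
  refine congrArg f (Subtype.ext ?_)
  rw [Submodule.coe_smul, e₂, e₁, e₄, e₃]
  show ρ (h * a * h⁻¹) (ρ (h * b * h⁻¹) (ρ h v)) = c • ρ (h * b * h⁻¹) (ρ (h * a * h⁻¹) (ρ h v))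
  have e : ∀ (m : G) (x : V), ρ (h * m * h⁻¹) (ρ h x) = ρ h (ρ m x) := fun m x => by
    rw [map_mul, map_mul, Module.End.mul_apply, Module.End.mul_apply, inv_apply_apply]
  rw [e, e, e, e, hab v hv, map_smul]

theorem Twist.smul_left {W : Simple ρ M} {a a' b : G} {c : k} (hb : b ∈ M) (ha : a ∈ M) {r : k}
    (h : Twist W.1 ρ a b c) (hr : ∀ w ∈ W.1, ρ a' w = r • ρ a w) : Twist W.1 ρ a' b c := fun w hw => by
  rw [hr _ (W.2.1 b hb w hw), h w hw, hr w hw, map_smul, smul_comm]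

theorem Twist.smul_right {W : Simple ρ M} {a b b' : G} {c : k} (hb : b ∈ M) (ha : a ∈ M) {r : k}
    (h : Twist W.1 ρ a b c) (hr : ∀ w ∈ W.1, ρ b' w = r • ρ b w) : Twist W.1 ρ a b' c := fun w hw => by
  rw [hr w hw, map_smul, h w hw, hr _ (W.2.1 a ha w hw), smul_comm]

theorem exists_smul_of_mk_eq {W : Simple ρ M} {a b : M} (h : (a : Tb W) = (b : Tb W)) :
    ∃ r : k, ∀ w ∈ W.1, ρ (b : G) w = r • ρ (a : G) w := by
  obtain ⟨-, r, hr⟩ := (mk_eq_mk W).1 h
  refine ⟨r, fun w hw => ?_⟩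
  rw [← map_smul, ← hr w hw, ← Module.End.mul_apply, ← map_mul, mul_inv_cancel_left]

section Central

variable [IsAlgClosed k] [FiniteDimensional k V]

/-- An element commuting with `M` on `W` is a scalar. -/
theorem mem_scalarSub_of_commute {W : Simple ρ M} {t : G} (ht : t ∈ M) (h : ∀ m ∈ M, Twist W.1 ρ t m 1) :
    t ∈ scalarSub W := by
  haveI : Nontrivial W.1 := Submodule.nontrivial_iff_ne_bot.2 W.2.2.1
  let res : (m : G) → m ∈ M → Module.End k W.1 := fun m hm => (ρ m).restrict (W.2.1 m hm)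
  obtain ⟨c, hc⟩ := scalar_of_commute {f : Module.End k W.1 | ∃ m, ∃ hm : m ∈ M, res m hm = f}
    (fun U hU => by
      rcases W.2.2.2 (U.map W.1.subtype) (fun m hm v hv => by
          obtain ⟨w, hw, rfl⟩ := hv
          exact ⟨_, hU _ ⟨m, hm, rfl⟩ w hw, rfl⟩) (Submodule.map_subtype_le _ _) with h1 | h1
      · exact Or.inl (Submodule.map_injective_of_injective W.1.subtype_injective (h1.trans (Submodule.map_bot _).symm))
      · exact Or.inr (Submodule.map_injective_of_injective W.1.subtype_injective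
          (h1.trans (Submodule.map_subtype_top W.1).symm)))
    (f := res t ht) (by
      rintro _ ⟨m, hm, rfl⟩
      refine LinearMap.ext fun w => Subtype.ext ?_
      show ρ m (ρ t w) = ρ t (ρ m w)
      rw [h m hm w w.2, one_smul])
  refine ⟨ht, c, fun w hw => ?_⟩
  exact congrArg (fun f : Module.End k W.1 => ((f ⟨w, hw⟩ : W.1) : V)) hc

theorem central_le_scalarSub (W : Simple ρ M) : M ⊓ Subgroup.centralizer (M : Set G) ≤ scalarSub W := fun t ht =>
  mem_scalarSub_of_commute ht.1 fun m hm w _ => by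
    rw [one_smul, ← Module.End.mul_apply, ← map_mul, ← Subgroup.mem_centralizer_iff.1 ht.2 m hm, map_mul,
      Module.End.mul_apply]

theorem Tb.comm (hc : ∀ a ∈ M, ∀ b ∈ M, ⁅a, b⁆ ∈ Subgroup.centralizer (M : Set G)) (W : Simple ρ M) (a b : Tb W) :
    a * b = b * a := by
  induction a using QuotientGroup.induction_on with
  | H a =>
  induction b using QuotientGroup.induction_on with
  | H b =>
  refine ((mk_eq_mk W).2 ?_).symm
  refine central_le_scalarSub W ?_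
  have e : ((b * a : M) : G)⁻¹ * ((a * b : M) : G) = ⁅(a : G)⁻¹, (b : G)⁻¹⁆ := by
    simp [commutatorElement_def, mul_assoc]
  rw [e]
  exact ⟨M.mul_mem (M.mul_mem (M.mul_mem (M.inv_mem a.2) (M.inv_mem b.2)) (M.inv_mem (M.inv_mem a.2)))
    (M.inv_mem (M.inv_mem b.2)), hc _ (M.inv_mem a.2) _ (M.inv_mem b.2)⟩

theorem exists_twist (hc : ∀ a ∈ M, ∀ b ∈ M, ⁅a, b⁆ ∈ Subgroup.centralizer (M : Set G)) (W : Simple ρ M) {a b : G}
    (ha : a ∈ M) (hb : b ∈ M) : ∃ c, Twist W.1 ρ a b c := by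
  obtain ⟨-, c, h⟩ := central_le_scalarSub W (x := ⁅a, b⁆)
    ⟨M.mul_mem (M.mul_mem (M.mul_mem ha hb) (M.inv_mem ha)) (M.inv_mem hb), hc a ha b hb⟩
  refine ⟨c, fun w hw => ?_⟩
  rw [← h _ (W.2.1 b hb _ (W.2.1 a ha w hw)), ← Module.End.mul_apply, ← map_mul, ← Module.End.mul_apply, ← map_mul,
    ← Module.End.mul_apply, ← map_mul]
  simp [commutatorElement_def]

theorem exists_sqrt [Finite G] {q : ℕ} [Fact q.Prime] (hq2 : q ≠ 2) (hMq : IsPGroup q M) (W : Simple ρ M) (t : Tb W) :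
    ∃ s, s * s = t ∧ ∀ s', s' * s' = t → s' = s := by
  obtain ⟨i, hi⟩ := (hMq.to_quotient ((scalarSub W).subgroupOf M)) t
  have hodd : Odd (Nat.card (Tb W)) := by
    obtain ⟨j, hj⟩ := IsPGroup.iff_card.1 (hMq.to_quotient ((scalarSub W).subgroupOf M))
    rw [hj]
    exact ((Nat.Prime.odd_of_ne_two Fact.out hq2)).pow
  obtain ⟨l, hl⟩ := hodd
  refine ⟨t ^ (l + 1), ?_, fun s' hs' => ?_⟩
  · rw [← pow_add, show l + 1 + (l + 1) = (2 * l + 1) + 1 by ring, ← hl, pow_succ, pow_card_eq_one', one_mul]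
  · rw [← hs', ← pow_two, ← pow_mul, show 2 * (l + 1) = (2 * l + 1) + 1 by ring, ← hl, pow_succ, pow_card_eq_one',
      one_mul]

/-- The classes fixed and the classes inverted by an automorphism generate. -/
theorem exists_decomp [Finite G] (hc : ∀ a ∈ M, ∀ b ∈ M, ⁅a, b⁆ ∈ Subgroup.centralizer (M : Set G))
    {q : ℕ} [Fact q.Prime] (hq2 : q ≠ 2) (hMq : IsPGroup q M) (W : Simple ρ M) (Y : MulAut (Tb W))
    (hY : ∀ t, Y (Y t) = t) (t : Tb W) : ∃ a b, Y a = a ∧ Y b = b⁻¹ ∧ a * b = t := by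
  let _ : CommGroup (Tb W) := { (inferInstance : Group (Tb W)) with mul_comm := Tb.comm hc W }
  obtain ⟨s, hs, -⟩ := exists_sqrt hq2 hMq W t
  refine ⟨s * Y s, s * (Y s)⁻¹, ?_, ?_, ?_⟩
  · rw [map_mul, hY, mul_comm]
  · rw [map_mul, map_inv, hY, mul_inv_rev, inv_inv]
  · rw [mul_mul_mul_comm, mul_inv_cancel, mul_one, hs]

end Central

end CfsgLib.GrossLength
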