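import Cfsg.Agent.GrossLength.Reflection
import Cfsg.Agent.GrossLength.Bottom
import Cfsg.Agent.PGroup.Critical
import Cfsg.Agent.Hall.Fitting

/-!
The bottom powers of exceptional elements lie in `O_{2',2}`.
-/

set_option autoImplicit false
set_option linter.style.haveILetI false
set_option linter.unusedSectionVars false

namespace CfsgLib.GrossLength

open CfsgLib.HallHigmanB CfsgLib.PCore
open scoped commutatorElement

/-- Two commuting conjugate reflections come from commuting exceptional elements. -/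
theorem conj_reflection {T : Type*} [CommGroup T] [Finite T] {q : ℕ} (hsq : ∀ t : T, t * t = 1 → t = 1)
    (hroot : ∀ t : T, ∃ s, s * s = t) (Y U P : MulAut T) (hY2 : ∀ t, Y (Y t) = t)
    (hcomm : Commute Y (P * Y * P⁻¹)) (hUY : Commute U Y) (hfix : ∀ t, Y t = t → U t = t)
    (hsigns : ∀ a b : T, Y a = a⁻¹ → Y b = b⁻¹ → (P * Y * P⁻¹) a = a⁻¹ → (P * Y * P⁻¹) b = b → a ≠ 1 → b = 1)
    (hne : P * Y * P⁻¹ ≠ Y) : Commute U (P * U * P⁻¹) := by
  have _ := q
  set Y' := P * Y * P⁻¹ with hY'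
  have happ : ∀ (A : MulAut T) t, (P * A * P⁻¹) t = P (A (P⁻¹ t)) := fun A t => rfl
  have hY'2 : ∀ t, Y' (Y' t) = t := fun t => by
    rw [hY', happ, happ, MulAut.inv_apply, MulAut.inv_apply, MulEquiv.symm_apply_apply, hY2, MulEquiv.apply_symm_apply]
  have hYY' : ∀ t, Y (Y' t) = Y' (Y t) := fun t => by rw [← MulAut.mul_apply, hcomm.eq, MulAut.mul_apply]
  have hdec : ∀ (Z : MulAut T), (∀ t, Z (Z t) = t) → ∀ t, ∃ a b, Z a = a ∧ Z b = b⁻¹ ∧ a * b = t := by
    intro Z hZ t
    obtain ⟨s, rfl⟩ := hroot t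
    refine ⟨s * Z s, s * (Z s)⁻¹, ?_, ?_, ?_⟩
    · rw [map_mul, hZ, mul_comm]
    · rw [map_mul, map_inv, hZ, mul_inv_rev, inv_inv]
    · rw [mul_mul_mul_comm, mul_inv_cancel, mul_one]
  have hboth : ∀ (Z : MulAut T) t, Z t = t → Z t = t⁻¹ → t = 1 := fun Z t h h' =>
    hsq t (mul_eq_one_iff_eq_inv.2 (h.symm.trans h'))
  -- `Y'` is a scalar on the classes inverted by `Y`
  have hscal : (∀ t, Y t = t⁻¹ → Y' t = t⁻¹) ∨ (∀ t, Y t = t⁻¹ → Y' t = t) := by
    by_cases hall : ∀ t, Y t = t⁻¹ → Y' t = t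
    · exact Or.inr hall
    left
    push Not at hall
    obtain ⟨t₀, ht₀, ht₀'⟩ := hall
    obtain ⟨b₀, a₀, hb₀, ha₀, hab₀⟩ := hdec Y' hY'2 t₀
    intro t ht
    obtain ⟨b, a, hb, ha, hab⟩ := hdec Y' hY'2 t
    have hmem : ∀ (c d r : T), Y r = r⁻¹ → Y' c = c → Y' d = d⁻¹ → c * d = r → Y c = c⁻¹ ∧ Y d = d⁻¹ := by
      intro c d r hr hc hd hcd
      have h1 : Y' (Y c) = Y c := by rw [← hYY', hc]
      have h2 : Y' (Y d) = (Y d)⁻¹ := by rw [← hYY', hd, map_inv]
      have h3 : Y c * Y d = c⁻¹ * d⁻¹ := by rw [← map_mul, hcd, hr, ← hcd, mul_inv]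
      have h4 : Y c * c = (Y d * d)⁻¹ := by
        rw [eq_inv_iff_mul_eq_one, mul_mul_mul_comm, h3, mul_mul_mul_comm, inv_mul_cancel, inv_mul_cancel, mul_one]
      have h5 : Y c * c = 1 := by
        refine hboth Y' _ (by rw [map_mul, h1, hc]) ?_
        rw [h4, map_inv, map_mul, h2, hd, ← mul_inv]
      refine ⟨eq_inv_of_mul_eq_one_left h5, eq_inv_of_mul_eq_one_left ?_⟩
      rwa [h5, one_eq_inv] at h4
    obtain ⟨-, ha₀Y⟩ := hmem b₀ a₀ t₀ ht₀ hb₀ ha₀ hab₀
    obtain ⟨hbY, -⟩ := hmem b a t ht hb ha hab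
    have ha1 : a₀ ≠ 1 := fun h => ht₀' (by rw [← hab₀, h, mul_one, hb₀])
    have hb1 : b = 1 := hsigns a₀ b ha₀Y hbY ha₀ hb ha1
    rw [← hab, hb1, one_mul, ha]
  rcases hscal with hinv | hfix'
  · -- the two reflections agree
    exfalso
    have hinv' : ∀ t, Y' t = t⁻¹ → Y t = t⁻¹ := by
      have hle : {t | Y t = t⁻¹} ⊆ {t | Y' t = t⁻¹} := hinv
      have hcard : Set.ncard {t | Y' t = t⁻¹} = Set.ncard {t | Y t = t⁻¹} := by
        have himg : {t | Y' t = t⁻¹} = P '' {t | Y t = t⁻¹} := by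
          ext t
          constructor
          · intro ht
            refine ⟨P⁻¹ t, ?_, MulEquiv.apply_symm_apply P t⟩
            show Y (P⁻¹ t) = (P⁻¹ t)⁻¹
            have h1 := congrArg (P⁻¹ : MulAut T) (show Y' t = t⁻¹ from ht)
            rwa [hY', happ, MulAut.inv_apply, MulAut.inv_apply, MulEquiv.symm_apply_apply, map_inv] at h1
          · rintro ⟨s, hs, rfl⟩
            show Y' (P s) = (P s)⁻¹
            rw [hY', happ, MulAut.inv_apply, MulEquiv.symm_apply_apply, show Y s = s⁻¹ from hs, map_inv]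
        rw [himg, Set.ncard_image_of_injective _ P.injective]
      have heq := Set.eq_of_subset_of_ncard_le hle hcard.le (Set.toFinite _)
      intro t ht
      exact (Set.ext_iff.1 heq t).2 ht
    refine hne (MulEquiv.ext fun t => ?_)
    obtain ⟨a, b, ha, hb, rfl⟩ := hdec Y hY2 t
    obtain ⟨c, d, hc, hd, hcd⟩ := hdec Y' hY'2 a
    have hdY := hinv' d hd
    have hd1 : d = 1 := by
      refine hsq d (hboth Y' _ ?_ (by rw [map_mul, hd, mul_inv]))
      have h1 : Y c * d⁻¹ = c * d := by rw [← hdY, ← map_mul, hcd, ha]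
      have h2 : d * d = c⁻¹ * Y c := by
        rw [eq_inv_mul_iff_mul_eq, ← mul_assoc, ← h1, inv_mul_cancel_right]
      rw [h2, map_mul, map_inv, hc, ← hYY', hc]
    rw [map_mul, map_mul, ha, hb, hinv b hb, ← hcd, hd1, mul_one, hc]
  · -- the two reflections are orthogonal
    set U' := P * U * P⁻¹ with hU'
    have hfixU' : ∀ t, Y' t = t → U' t = t := by
      intro t ht
      rw [hU', happ]
      have h1 : Y (P⁻¹ t) = P⁻¹ t := by
        have h2 := congrArg (P⁻¹ : MulAut T) ht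
        rwa [hY', happ, MulAut.inv_apply, MulAut.inv_apply, MulEquiv.symm_apply_apply] at h2
      rw [hfix _ h1, MulAut.inv_apply, MulEquiv.apply_symm_apply]
    have hswap : ∀ t, Y' t = t⁻¹ → Y t = t := by
      intro t ht
      obtain ⟨a, b, ha, hb, rfl⟩ := hdec Y hY2 t
      have hb' := hfix' b hb
      rw [map_mul, hb'] at ht
      have hb1 : b = 1 := by
        refine hsq b (hboth Y _ ?_ (by rw [map_mul, hb, mul_inv]))
        have h1 : b * b = (Y' a * a)⁻¹ := by
          refine eq_inv_of_mul_eq_one_left ?_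
          rw [mul_mul_mul_comm, mul_comm b (Y' a), ht, mul_comm a b]
          exact inv_mul_cancel _ |> fun e => by rw [mul_comm b a]; exact e
        rw [h1, map_inv, map_mul, hYY', ha]
      rw [hb1, mul_one, ha]
    have hcommU' : Commute U' Y' := by
      rw [hU', hY']
      show P * U * P⁻¹ * (P * Y * P⁻¹) = P * Y * P⁻¹ * (P * U * P⁻¹)
      calc P * U * P⁻¹ * (P * Y * P⁻¹) = P * (U * Y) * P⁻¹ := by group
        _ = P * (Y * U) * P⁻¹ := by rw [hUY.eq]
        _ = _ := by group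
    have hd : ∀ (A Z : MulAut T), (∀ t, Z (Z t) = t) → Commute A Z → (∀ t, Z t = t → A t = t) → ∀ t,
        Z (A t * t⁻¹) = (A t * t⁻¹)⁻¹ := by
      intro A Z hZ hAZ hAf t
      obtain ⟨a, b, ha, hb, rfl⟩ := hdec Z hZ t
      have hAb : Z (A b) = (A b)⁻¹ := by rw [← MulAut.mul_apply, ← hAZ.eq, MulAut.mul_apply, hb, map_inv]
      rw [map_mul A, hAf a ha, mul_inv, mul_mul_mul_comm, mul_inv_cancel, one_mul, map_mul, map_inv, hAb, hb, mul_inv]
    have k1 : ∀ t, U' (U t * t⁻¹) = U t * t⁻¹ := fun t => hfixU' _ (hfix' _ (hd U Y hY2 hUY hfix t))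
    have k2 : ∀ t, U (U' t * t⁻¹) = U' t * t⁻¹ := fun t => hfix _ (hswap _ (hd U' Y' hY'2 hcommU' hfixU' t))
    refine MulEquiv.ext fun t => ?_
    show U (U' t) = U' (U t)
    have e1 := k1 t
    have e2 := k2 t
    rw [map_mul, map_inv, mul_inv_eq_iff_eq_mul] at e1 e2
    rw [e1, e2]
    ac_rfl

theorem exists_class_two {G : Type*} [Group G] [Finite G] (q : ℕ) [hq : Fact q.Prime] (hq2 : q ≠ 2) :
    ∃ M : Subgroup G, M.Normal ∧ IsPGroup q M ∧ (∀ a ∈ M, ∀ b ∈ M, ⁅a, b⁆ ∈ Subgroup.centralizer (M : Set G)) ∧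
      ∀ c : G, c ^ 2 = 1 → c ∈ Subgroup.centralizer (M : Set G) →
        c ∈ Subgroup.centralizer (Cfsg.pCore q G : Set G) := by
  set T := Cfsg.pCore q G
  haveI hTn : T.Normal := Cfsg.pCore_normal q G
  have hTq : IsPGroup q T := isPGroup_pCore q G
  set Γ := (MulAut.conjNormal (H := T) : G →* MulAut T).range
  obtain ⟨H, hH⟩ := CfsgLib.PGroup.exists_critical hTq Γ fun g => ⟨(g : G), MulEquiv.ext fun a => Subtype.ext (by simp)⟩
  haveI hHn : H.Normal := ⟨fun a ha b => by
    have := hH.invariant (MulAut.conjNormal (b : G)) ⟨(b : G), rfl⟩ a ha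
    rwa [show MulAut.conjNormal (b : G) a = b * a * b⁻¹ from Subtype.ext (by simp)] at this⟩
  refine ⟨H.map T.subtype, ⟨fun a ha g => ?_⟩, hTq.to_le (Subgroup.map_subtype_le H), ?_, fun c hc hcc => ?_⟩
  · obtain ⟨a, ha, rfl⟩ := ha
    exact ⟨MulAut.conjNormal g a, hH.invariant _ ⟨g, rfl⟩ a ha, by simp⟩
  · rintro _ ⟨a, ha, rfl⟩ _ ⟨b, hb, rfl⟩
    have h1 := (hH.commutator_le (Subgroup.commutator_mem_commutator ha (Subgroup.mem_top b))).2
    refine Subgroup.mem_centralizer_iff.2 ?_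
    rintro _ ⟨d, hd, rfl⟩
    rw [← map_commutatorElement, ← map_mul, ← map_mul, Subgroup.mem_centralizer_iff.1 h1 d hd]
  · have h1 : MulAut.conjNormal (H := T) c = 1 := by
      refine CfsgLib.PGroup.eq_one_of_fixes_selfCentralizing hTq hH.centralizer_le ?_ fun a ha => Subtype.ext ?_
      · refine Nat.Coprime.coprime_dvd_left (orderOf_dvd_of_pow_eq_one (n := 2) ?_)
          ((Nat.coprime_primes Nat.prime_two hq.out).2 hq2.symm)
        rw [← map_pow, hc, map_one]
      · rw [MulAut.conjNormal_apply, ← Subgroup.mem_centralizer_iff.1 hcc a ⟨a, ha, rfl⟩, mul_inv_cancel_right]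
    refine Subgroup.mem_centralizer_iff.2 fun a ha => ?_
    have h2 := congrArg Subtype.val (DFunLike.congr_fun h1 (⟨a, ha⟩ : T))
    rw [MulAut.conjNormal_apply, MulAut.one_apply, mul_inv_eq_iff_eq_mul] at h2
    exact h2.symm

variable {k : Type*} [Field k] [IsAlgClosed k] [CharP k 2] {G : Type*} [Group G] [Finite G] {V : Type*}
  [AddCommGroup V] [Module k V] [FiniteDimensional k V] {ρ : G →* Module.End k V}

/-- An element of a `q`-group acting trivially on each of its simple submodules is the identity. -/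
theorem eq_one_of_trivial_on_simples (hρ : Function.Injective ρ) {M : Subgroup G} [hMn : M.Normal] {q : ℕ}
    [hq : Fact q.Prime] (hq2 : q ≠ 2) (hMq : IsPGroup q M) {a : G} (ha : a ∈ M)
    (htriv : ∀ W : Simple ρ M, ∀ w ∈ W.1, ρ a w = w) : a = 1 := by
  haveI := Fintype.ofFinite M
  set Q := Subgroup.normalClosure ({a} : Set G)
  have hQM : Q ≤ M := Subgroup.normalClosure_le_normal (Set.singleton_subset_iff.2 ha)
  set X := Submodule.span k (Set.range fun z : Q × V => ρ (z.1 : G) z.2 - z.2)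
  have hX : Inv ρ M X := by
    intro m hm v hv
    induction hv using Submodule.span_induction with
    | mem v hv =>
      obtain ⟨⟨b, w⟩, rfl⟩ := hv
      refine Submodule.subset_span ⟨(⟨m * b * m⁻¹, (Subgroup.normalClosure_normal).conj_mem _ b.2 m⟩, ρ m w), ?_⟩
      simp only [map_sub, ← Module.End.mul_apply, ← map_mul, inv_mul_cancel_right]
    | zero => simp
    | add u w _ _ hu hw => rw [map_add]; exact add_mem hu hw
    | smul c u _ hu => rw [map_smul]; exact Submodule.smul_mem _ c hu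
  have hQtriv : ∀ W : Simple ρ M, ∀ b ∈ Q, ∀ w ∈ W.1, ρ b w = w := by
    intro W b hb
    -- conjugates of `a` act trivially, as translates of simple submodules are simple
    induction hb using Subgroup.closure_induction with
    | mem b hb =>
      obtain ⟨a', ha', hconj⟩ := Group.mem_conjugatesOfSet_iff.1 hb
      rw [Set.mem_singleton_iff.1 ha'] at hconj
      obtain ⟨g, rfl⟩ := isConj_iff.1 hconj
      intro w hw
      have h1 := htriv ⟨_, simple_map W.2 (mem_normalizer_M (M := M) g⁻¹)⟩ (ρ g⁻¹ w) ⟨w, hw, rfl⟩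
      rw [map_mul, map_mul, Module.End.mul_apply, Module.End.mul_apply, h1, apply_inv_apply]
    | one => intro w _; simp
    | mul x y _ _ hx hy => intro w hw; rw [map_mul, Module.End.mul_apply, hy w hw, hx w hw]
    | inv x _ hx => intro w hw; nth_rewrite 1 [← hx w hw]; exact inv_apply_apply x w
  have hX0 : X = ⊥ := by
    by_contra hne
    obtain ⟨W, hW, hWX⟩ := exists_simple_le hX hne
    refine hW.2.1 ((Submodule.eq_bot_iff W).2 fun u hu => ?_)
    haveI := Fintype.ofFinite Q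
    let P : V →ₗ[k] V := ∑ b : Q, ρ (b : G)
    have hP : X ≤ LinearMap.ker P := by
      rw [Submodule.span_le]
      rintro _ ⟨⟨b, w⟩, rfl⟩
      simp only [SetLike.mem_coe, LinearMap.mem_ker, map_sub, sub_eq_zero, P, LinearMap.sum_apply]
      exact Fintype.sum_equiv (Equiv.mulRight b) _ _ fun a => by simp
    have h1 : P u = (Nat.card Q : k) • u := by
      simp only [P, LinearMap.sum_apply, Nat.card_eq_fintype_card]
      rw [Finset.sum_congr rfl (fun (b : Q) _ => hQtriv ⟨W, hW⟩ (b : G) b.2 u hu), Finset.sum_const, Finset.card_univ,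
        Nat.cast_smul_eq_nsmul]
    rw [LinearMap.mem_ker.1 (hP (hWX hu))] at h1
    refine (smul_eq_zero.1 h1.symm).resolve_left fun h0 => ?_
    obtain ⟨i, hi⟩ := IsPGroup.iff_card.1 (hMq.to_le hQM)
    rw [hi] at h0
    exact hq2 ((Nat.prime_dvd_prime_iff_eq Nat.prime_two hq.out).1
      (Nat.prime_two.dvd_of_dvd_pow ((CharP.cast_eq_zero_iff k 2 _).1 h0))).symm
  refine hρ (LinearMap.ext fun v => ?_)
  rw [map_one, Module.End.one_apply]
  exact sub_eq_zero.1 ((Submodule.eq_bot_iff X).1 hX0 _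
    (Submodule.subset_span ⟨(⟨a, Subgroup.subset_normalClosure rfl⟩, v), rfl⟩))

theorem classAut_eq_one_of_centreAut {M : Subgroup G} [hMn : M.Normal] (W : Simple ρ M) (h : classFix W)
    (hh : centreAut M (h : G) = 1) : classAut W h = 1 := by
  refine MulEquiv.ext fun z => ?_
  induction z using QuotientGroup.induction_on with
  | H t =>
    have h1 := DFunLike.congr_fun hh (t : Vd M)
    rw [MulAut.one_apply, centreAut_mk, QuotientGroup.eq, Subgroup.mem_subgroupOf] at h1
    rw [MulAut.one_apply, classAut_mk, QuotientGroup.eq, Subgroup.mem_subgroupOf]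
    exact central_le_scalarSub W h1

/-- The bottom power of an element of maximal order lies in `O_{2',2}`. -/
theorem bottom_mem_core [Nontrivial V] (hρ : Function.Injective ρ) [Group.IsSolvable G]
    (h2 : Cfsg.pCore 2 G = ⊥) (e : ℕ)
    (hexp : ∀ (P : Sylow 2 G), ∀ x ∈ (P : Subgroup G), x ^ 2 ^ (e + 1) = 1)
    (hdef : ∀ g : G, g ^ 2 ^ (e + 1) = 1 → (ρ g - 1) ^ (2 ^ (e + 1) - 1) = 0)
    (S : Sylow 2 G) (g : G) (hgS : g ∈ (S : Subgroup G)) : g ^ 2 ^ e ∈ Cfsg.pPrimePCore 2 G := by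
  classical
  haveI : Fact (Nat.Prime 2) := ⟨Nat.prime_two⟩
  set y := g ^ 2 ^ e with hy
  choose Mf hMn hMq hMc hMdet using fun q : {q : ℕ // q.Prime ∧ q ≠ 2} =>
    @exists_class_two G _ _ q.1 ⟨q.2.1⟩ q.2.2
  let ι := Σ q : {q : ℕ // q.Prime ∧ q ≠ 2}, Simple ρ (Mf q)
  let cf : ι → Subgroup G := fun i => @classFix k _ G _ V _ _ ρ (Mf i.1) (hMn i.1) i.2
  set K : Subgroup G := ⨅ i, cf i with hK
  haveI hKn : K.Normal := ⟨fun h hh a => Subgroup.mem_iInf.2 fun i => by
    haveI := hMn i.1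
    obtain ⟨q, W⟩ := i
    show Iso ρ (Mf q) W.1 (W.1.map (ρ (a * h * a⁻¹)))
    let W' : Simple ρ (Mf q) := ⟨_, simple_map W.2 (mem_normalizer_M a⁻¹)⟩
    have h1 := iso_map W'.2.1 ((Subgroup.mem_iInf.1 hh ⟨q, W'⟩ : h ∈ classFix W') :
      Iso ρ (Mf q) W'.1 (W'.1.map (ρ h))) (mem_normalizer_M (M := Mf q) a)
    rw [map_rho_mul, map_rho_mul, map_rho_mul, mul_inv_cancel, map_one, Module.End.one_eq_id, Submodule.map_id] at h1
    simpa [mul_assoc] using h1⟩
  have hgn : g ^ 2 ^ (e + 1) = 1 := hexp S g hgS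
  -- periods
  have hper : ∀ i : ι, ∃ j ≤ e, ∃ U : Simple ρ (Mf i.1), Iso ρ (Mf i.1) i.2.1 U.1 ∧
      U.1.map (ρ (g ^ 2 ^ j)) = U.1 ∧
      ∀ v ∈ U.1, ((ρ (g ^ 2 ^ j) - 1) ^ (2 ^ (e + 1 - j) - 1) : Module.End k V) v = 0 := by
    intro i
    haveI := hMn i.1
    obtain ⟨j, hj, U₀, hU₀, hiso, hfix, hz⟩ := exists_period i.2.2 (mem_normalizer_M g) hgn (hdef g hgn)
    exact ⟨j, Nat.le_of_lt_succ hj, ⟨U₀, hU₀⟩, hiso, hfix, hz⟩
  choose j hje U hiso hfixU hzU using hper
  have hcfU : ∀ i : ι, cf i = @classFix k _ G _ V _ _ ρ (Mf i.1) (hMn i.1) (U i) := fun i => by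
    haveI := hMn i.1
    exact classFix_eq i.2 (U i) (hiso i)
  have hu : ∀ i : ι, g ^ 2 ^ j i ∈ cf i := fun i => by
    haveI := hMn i.1
    rw [hcfU]
    show Iso ρ (Mf i.1) (U i).1 ((U i).1.map (ρ (g ^ 2 ^ j i)))
    rw [hfixU]
    exact iso_refl _ _
  have hyK : y ∈ K := Subgroup.mem_iInf.2 fun i => by
    rw [hy, show 2 ^ e = 2 ^ j i * 2 ^ (e - j i) by rw [← pow_add, Nat.add_sub_cancel' (hje i)], pow_mul]
    exact Subgroup.pow_mem _ (hu i) _
  let L : ι → Subgroup G := fun i => K ⊔ Subgroup.zpowers (g ^ 2 ^ j i)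
  have hLle : ∀ i, L i ≤ @classFix k _ G _ V _ _ ρ (Mf i.1) (hMn i.1) (U i) := fun i => by
    rw [← hcfU]
    exact sup_le (iInf_le _ i) (Subgroup.zpowers_le.2 (hu i))
  let F : ∀ i : ι, L i →* MulAut (Tb (U i)) := fun i =>
    (@classAut k _ G _ V _ _ ρ (Mf i.1) (hMn i.1) (U i)).comp (Subgroup.inclusion (hLle i))
  have hKL : ∀ i, K ≤ L i := fun i => le_sup_left
  -- all bottom powers of a Sylow group commute modulo the centres
  have hcommS : ∀ q : {q : ℕ // q.Prime ∧ q ≠ 2}, ∀ h₁ ∈ (S : Subgroup G), ∀ h₂ ∈ (S : Subgroup G),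
      Commute (@centreAut G _ (Mf q) (hMn q) (h₁ ^ 2 ^ e)) (@centreAut G _ (Mf q) (hMn q) (h₂ ^ 2 ^ e)) := by
    intro q h₁ hh₁ h₂ hh₂
    haveI := hMn q
    haveI : Fact (q.1).Prime := ⟨q.2.1⟩
    set M := Mf q
    set Ψ := centreAut M
    set D := M ⊓ Subgroup.centralizer (M : Set G) with hD
    haveI hDn : D.Normal := by
      haveI : (Subgroup.centralizer (M : Set G)).Normal := Subgroup.normal_centralizer
      exact Subgroup.normal_inf_normal _ _
    haveI : (Subgroup.centralizer (D : Set G)).Normal := Subgroup.normal_centralizer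
    let π : (S : Subgroup G) →* MulAut (Vd M) := Ψ.comp (S : Subgroup G).subtype
    let Qs := π.range
    haveI : Group.IsNilpotent Qs := by
      have h1 : IsPGroup 2 Qs := S.isPGroup'.of_surjective π.rangeRestrict π.rangeRestrict_surjective
      exact h1.isNilpotent
    let P : Subgroup Qs := ((Subgroup.centralizer (D : Set G)).comap (S : Subgroup G).subtype).map π.rangeRestrict
    haveI hPn : P.Normal := (inferInstance : ((Subgroup.centralizer (D : Set G)).comap
      (S : Subgroup G).subtype).Normal).map _ π.rangeRestrict_surjective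
    obtain ⟨A, hA⟩ := (Set.toFinite {A : Subgroup Qs | A.Normal ∧ A ≤ P ∧ (∀ a ∈ A, ∀ b ∈ A, a * b = b * a) ∧
      ∀ a ∈ A, a ^ 4 = 1}).exists_maximal ⟨⊥, inferInstance, bot_le,
        fun a ha b _ => by rw [Subgroup.mem_bot.1 ha, one_mul, mul_one],
        fun a ha => by rw [Subgroup.mem_bot.1 ha, one_pow]⟩
    obtain ⟨hAn, hAP, hAc, hA4⟩ := hA.prop
    let E : Subgroup G := ((A.comap π.rangeRestrict) ⊓
      (Subgroup.centralizer (D : Set G)).comap (S : Subgroup G).subtype).map (S : Subgroup G).subtype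
    have key : ∀ h : (S : Subgroup G), π.rangeRestrict (h ^ 2 ^ e) ∈ A := by
      intro h
      have hhn : (h : G) ^ 2 ^ (e + 1) = 1 := hexp S h h.2
      have hyab : ∀ U : Subgroup G, IsPGroup q.1 U → (∀ a ∈ U, ∀ b ∈ U, a * b = b * a) →
          (h : G) ∈ Subgroup.normalizer (U : Set G) → (h : G) ^ 2 ^ e ∈ Subgroup.centralizer (U : Set G) :=
        fun U hU hUc hn => centralizes_abelian hρ hhn (hdef _ hhn) q.2.2 hU hUc hn
      have hyD : (h : G) ^ 2 ^ e ∈ Subgroup.centralizer (D : Set G) :=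
        hyab D ((hMq q).to_le inf_le_left) (fun a ha b hb => Subgroup.mem_centralizer_iff.1 hb.2 a ha.1)
          (by rw [Subgroup.normalizer_eq_top_iff.2 hDn]; exact Subgroup.mem_top _)
      refine mem_of_centralizes P A hA ⟨h ^ 2 ^ e, Subgroup.mem_comap.2 hyD, rfl⟩ ?_ ?_
      · intro a ha
        obtain ⟨a', ha', haa⟩ := hAP ha
        subst haa
        have h1 := commute_bottom q.2.2 (hMq q) (hMc q) e (h : G) hhn hyab E ?_ ?_ ?_ ?_ (a' : G)
          ⟨a', ⟨ha, ha'⟩, rfl⟩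
        · exact Subtype.ext (by
            show π (h ^ 2 ^ e) * π a' = π a' * π (h ^ 2 ^ e)
            simpa [π] using h1)
        · rintro _ ⟨b, hb, rfl⟩ _ ⟨c, hc, rfl⟩
          exact congrArg Subtype.val (hAc _ hb.1 _ hc.1)
        · rintro _ ⟨b, hb, rfl⟩
          exact congrArg Subtype.val (hA4 _ hb.1)
        · rintro _ ⟨b, hb, rfl⟩ d hd
          have h2 : d * (b : G) = b * d := Subgroup.mem_centralizer_iff.1 hb.2 d hd
          show (b : G) * d * (b : G)⁻¹ = d
          rw [← h2, mul_inv_cancel_right]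
        · rintro _ ⟨b, hb, rfl⟩
          refine ⟨h * b * h⁻¹, ⟨?_, ?_⟩, by simp⟩
          · show π.rangeRestrict (h * b * h⁻¹) ∈ A
            rw [map_mul, map_mul, map_inv]
            exact hAn.conj_mem _ hb.1 _
          · exact (inferInstance : ((Subgroup.centralizer (D : Set G)).comap (S : Subgroup G).subtype).Normal).conj_mem
              _ hb.2 h
      · rw [← map_pow, ← pow_mul, show 2 ^ e * 4 = 2 ^ (e + 1) * 2 by ring, pow_mul,
          show h ^ 2 ^ (e + 1) = 1 from Subtype.ext (by rw [SubgroupClass.coe_pow]; exact hhn), one_pow, map_one]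
    exact congrArg Subtype.val (hAc _ (key ⟨h₁, hh₁⟩) _ (key ⟨h₂, hh₂⟩))
  let f : ∀ i : ι, K →* (F i).range := fun i => (F i).rangeRestrict.comp (Subgroup.inclusion (hKL i))
  have hker : ∀ c : K, c ^ 2 = 1 → (∀ i, f i c = 1) → c = 1 := by
    intro c hc hcall
    have hc' : (c : G) ^ 2 = 1 := by rw [← SubgroupClass.coe_pow, hc, OneMemClass.coe_one]
    have hcM : ∀ q : {q : ℕ // q.Prime ∧ q ≠ 2}, (c : G) ∈ Subgroup.centralizer (Mf q : Set G) := by
      intro q
      haveI := hMn q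
      haveI : Fact (q.1).Prime := ⟨q.2.1⟩
      set M := Mf q
      refine Subgroup.mem_centralizer_iff.2 fun t ht => ?_
      set d := (c : G) * t * (c : G)⁻¹ * t⁻¹ with hd
      have hdM : d ∈ M := M.mul_mem ((hMn q).conj_mem t ht _) (M.inv_mem ht)
      have hsc : ∀ W : Simple ρ M, d ∈ scalarSub W ∧ (c : G) ∈ classFix W := by
        intro W
        have hcW : (c : G) ∈ classFix W := (Subgroup.mem_iInf.1 c.2 ⟨q, W⟩ : _)
        have h0 : ((F ⟨q, W⟩) ⟨(c : G), hKL _ c.2⟩) = 1 := congrArg Subtype.val (hcall ⟨q, W⟩)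
        have h1 := DFunLike.congr_fun h0 ((⟨t, ht⟩ : M) : Tb (U ⟨q, W⟩))
        change classAut (U ⟨q, W⟩) ⟨(c : G), _⟩ ((⟨t, ht⟩ : M) : Tb (U ⟨q, W⟩)) = _ at h1
        rw [classAut_mk, MulAut.one_apply] at h1
        have h2 := (mk_eq_mk (U ⟨q, W⟩)).1 h1.symm
        rw [← scalarSub_eq W (U ⟨q, W⟩) (hiso ⟨q, W⟩)] at h2
        refine ⟨?_, hcW⟩
        have h3 := conj_mem_scalarSub (W := W) (h := t) ?_ h2
        · rwa [show t * (t⁻¹ * ((c : G) * t * (c : G)⁻¹)) * t⁻¹ = d by rw [hd]; group] at h3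
        · have hW : W.1.map (ρ t) = W.1 := Submodule.eq_of_le_of_finrank_le
              (by rintro _ ⟨w, hw, rfl⟩; exact W.2.1 t ht w hw) (finrank_map_rho t W.1).ge
          show Iso ρ M W.1 (W.1.map (ρ t))
          rw [hW]
          exact iso_refl M W.1
      have hdc : ∀ m ∈ M, d * m = m * d := by
        intro m hm
        refine commutatorElement_eq_one_iff_mul_comm.1 (eq_one_of_trivial_on_simples hρ q.2.2 (hMq q)
          (M.mul_mem (M.mul_mem (M.mul_mem hdM hm) (M.inv_mem hdM)) (M.inv_mem hm)) fun W w hw => ?_)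
        obtain ⟨-, s₀, hs₀⟩ := (hsc W).1
        have hmi := W.2.1 _ (M.inv_mem hm) w hw
        have hdi := W.2.1 _ (M.inv_mem hdM) _ hmi
        have e : ρ m (ρ d (ρ d⁻¹ (ρ m⁻¹ w))) = ρ d (ρ m (ρ d⁻¹ (ρ m⁻¹ w))) := by
          rw [hs₀ _ hdi, map_smul, hs₀ _ (W.2.1 m hm _ hdi)]
        rw [commutatorElement_def, map_mul, map_mul, map_mul, Module.End.mul_apply, Module.End.mul_apply,
          Module.End.mul_apply, ← e, apply_inv_apply, apply_inv_apply]
      have hcd : (c : G) * d * (c : G)⁻¹ = d := by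
        rw [← mul_inv_eq_one]
        refine eq_one_of_trivial_on_simples hρ q.2.2 (hMq q)
          (M.mul_mem ((hMn q).conj_mem d hdM _) (M.inv_mem hdM)) fun W w hw => ?_
        obtain ⟨-, s₀, hs₀⟩ := (hsc W).1
        have hw' := W.2.1 _ (M.inv_mem hdM) w hw
        rw [map_mul ρ ((c : G) * d * (c : G)⁻¹), Module.End.mul_apply, conj_scalar (hsc W).2 hdM hs₀ _ hw',
          ← hs₀ _ hw', apply_inv_apply]
      have hcc : (c : G) * (c : G) = 1 := by rw [← pow_two, hc']
      have hci : (c : G)⁻¹ = c := inv_eq_of_mul_eq_one_right hcc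
      have h2 : d * d = 1 := by
        have e1 : (c : G) * d * (c : G)⁻¹ = d⁻¹ := by
          rw [hd, hci]
          calc (c : G) * ((c : G) * t * c * t⁻¹) * c = (c * c) * t * c * t⁻¹ * c := by group
            _ = t * c * t⁻¹ * c := by rw [hcc, one_mul]
            _ = t * (c : G)⁻¹ * t⁻¹ * (c : G)⁻¹ := by rw [hci]
            _ = ((c : G) * t * c * t⁻¹)⁻¹ := by group
        rw [hcd] at e1
        exact mul_eq_one_iff_eq_inv.2 e1
      have h3 : d = 1 := eq_one_of_eq_inv q.2.2 (hMq q) hdM (mul_eq_one_iff_eq_inv.1 h2)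
      rw [hd, mul_inv_eq_one, mul_inv_eq_iff_eq_mul] at h3
      exact h3.symm
    have hcF : (c : G) ∈ Subgroup.centralizer (Cfsg.fittingSubgroup G : Set G) := by
      have hle : Cfsg.fittingSubgroup G ≤ Subgroup.centralizer ({(c : G)} : Set G) := by
        rw [CfsgLib.Hall.fitting_eq_iSup_primes]
        refine iSup_le fun q a ha => Subgroup.mem_centralizer_singleton_iff.2 ?_
        by_cases hq2 : (q : ℕ) = 2
        · rw [hq2, h2] at ha
          rw [Subgroup.mem_bot.1 ha, one_mul, mul_one]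
        · exact Subgroup.mem_centralizer_iff.1 (hMdet ⟨q, q.2, hq2⟩ _ hc' (hcM ⟨q, q.2, hq2⟩)) a ha
      exact Subgroup.mem_centralizer_iff.2 fun a ha => Subgroup.mem_centralizer_singleton_iff.1 (hle ha)
    have hFN : Cfsg.fittingSubgroup G ≤ Cfsg.pPrimeCore 2 G := by
      rw [CfsgLib.Hall.fitting_eq_iSup_primes]
      refine iSup_le fun q => ?_
      by_cases hq2 : (q : ℕ) = 2
      · rw [hq2, h2]; exact bot_le
      · haveI : Fact (q : ℕ).Prime := ⟨q.2⟩
        refine le_pPrimeCore (Cfsg.pCore_normal _ _) ?_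
        obtain ⟨l, hl⟩ := IsPGroup.iff_card.1 (isPGroup_pCore (q : ℕ) G)
        rw [hl]
        exact ((Nat.coprime_primes q.2 Nat.prime_two).2 hq2).pow_left l
    refine Subtype.ext (orderOf_eq_one_iff.1 (Nat.eq_one_of_dvd_coprimes (pPrimeCore_coprime 2 G)
      (Subgroup.orderOf_dvd_natCard _ (hFN (CfsgLib.Hall.centralizer_fitting_le hcF)))
      (orderOf_dvd_of_pow_eq_one hc')))
  have hgoal : (⟨y, hyK⟩ : K) ∈ Cfsg.pPrimePCore 2 K := by
    refine mem_pPrimePCore_of_forall f hker fun i => ?_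
    haveI := hMn i.1
    haveI : Fact (i.1.1).Prime := ⟨i.1.2.1⟩
    set u := g ^ 2 ^ j i with hudef
    set W := U i
    have hu' : u ∈ classFix W := by rw [← hcfU]; exact hu i
    have hgS' : u ∈ (S : Subgroup G) := Subgroup.pow_mem _ hgS _
    set X : Subgroup G := ((S : Subgroup G) ⊓ K) ⊔ Subgroup.zpowers u
    have hXS : X ≤ (S : Subgroup G) := sup_le inf_le_left (Subgroup.zpowers_le.2 hgS')
    have hXL : X ≤ L i := sup_le (inf_le_right.trans le_sup_left) le_sup_right
    have hXK : X ⊓ K = (S : Subgroup G) ⊓ K :=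
      le_antisymm (inf_le_inf_right _ hXS) (le_inf le_sup_left inf_le_right)
    have hLX : L i = X ⊔ K := by
      refine le_antisymm (sup_le le_sup_right (le_trans le_sup_right le_sup_left)) (sup_le hXL le_sup_left)
    -- `X` is a Sylow subgroup of `L`
    have hodd : ¬ 2 ∣ (X.subgroupOf (L i)).index := by
      have hcardSK : ∀ Y : Subgroup G, Nat.card ↥(Y ⊔ K) * Nat.card ↥(Y ⊓ K) = Nat.card Y * Nat.card K := by
        intro Y
        rw [← Subgroup.relIndex_bot_left (Y ⊓ K), ← Subgroup.relIndex_bot_left Y,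
          ← Subgroup.relIndex_bot_left K, ← Subgroup.relIndex_bot_left (Y ⊔ K),
          ← Subgroup.relIndex_mul_relIndex ⊥ K (Y ⊔ K) bot_le le_sup_right,
          ← Subgroup.relIndex_mul_relIndex ⊥ (Y ⊓ K) Y bot_le inf_le_left,
          Subgroup.relIndex_sup_right, Subgroup.inf_relIndex_left]
        ring
      have e1 := hcardSK X
      have e2 := hcardSK S
      rw [hXK, ← hLX] at e1
      have e3 : Nat.card (L i) * Nat.card (S : Subgroup G) = Nat.card X * Nat.card ↥((S : Subgroup G) ⊔ K) := by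
        refine Nat.eq_of_mul_eq_mul_right (Nat.card_pos (α := ↥((S : Subgroup G) ⊓ K))) ?_
        rw [mul_right_comm, e1, mul_assoc, mul_assoc, e2]
        ring
      have e4 : (X.subgroupOf (L i)).index * Nat.card X = Nat.card (L i) := by
        rw [← Nat.card_congr (Subgroup.subgroupOfEquivOfLe hXL).toEquiv, mul_comm]
        exact Subgroup.card_mul_index _
      have e5 : ((S : Subgroup G).subgroupOf ((S : Subgroup G) ⊔ K)).index * Nat.card (S : Subgroup G) =
          Nat.card ↥((S : Subgroup G) ⊔ K) := by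
        rw [← Nat.card_congr (Subgroup.subgroupOfEquivOfLe (le_sup_left : (S : Subgroup G) ≤ _ ⊔ K)).toEquiv, mul_comm]
        exact Subgroup.card_mul_index _
      have e6 : (X.subgroupOf (L i)).index = ((S : Subgroup G).subgroupOf ((S : Subgroup G) ⊔ K)).index := by
        refine Nat.eq_of_mul_eq_mul_right (Nat.mul_pos (Nat.card_pos (α := X)) (Nat.card_pos (α := (S : Subgroup G)))) ?_
        rw [← mul_assoc, e4, e3, ← e5]
        ring
      rw [e6]
      exact fun hd => S.not_dvd_index (hd.trans (Subgroup.relIndex_dvd_index_of_le le_sup_left))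
    let P₀ : Sylow 2 (L i) := (S.isPGroup'.to_le hXS).comap_of_injective (L i).subtype (L i).subtype_injective
      |>.toSylow hodd
    haveI : Group.IsSolvable (F i).range :=
      Group.isSolvable_of_surjective (f := (F i).rangeRestrict) (F i).rangeRestrict_surjective
    let PΓ := P₀.mapSurjective (F i).rangeRestrict_surjective
    refine mem_core_of_reflection PΓ ?_
    intro w hw
    rw [Sylow.coe_mapSurjective] at hw
    obtain ⟨p, hp, rfl⟩ := hw
    have hpS : (p : G) ∈ (S : Subgroup G) := hXS hp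
    set a := e + 1 - j i with hadef
    have hja : j i + (a - 1) = e := by have := hje i; omega
    let uL : L i := ⟨u, Subgroup.mem_sup_right (Subgroup.mem_zpowers u)⟩
    let yL : L i := ⟨y, hKL i hyK⟩
    let uW : classFix W := ⟨u, hu'⟩
    have hyu : y = u ^ 2 ^ (a - 1) := by rw [hy, hudef, ← pow_mul, ← pow_add, hja]
    have hFy : F i yL = classAut W (uW ^ 2 ^ (a - 1)) := by
      show classAut W _ = _
      exact congrArg _ (Subtype.ext (by rw [SubgroupClass.coe_pow]; exact hyu))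
    have hFu : F i uL = classAut W uW := rfl
    show (F i).rangeRestrict p * (F i).rangeRestrict yL * ((F i).rangeRestrict p)⁻¹ = (F i).rangeRestrict yL ∨ _
    by_cases hne : F i p * F i yL * (F i p)⁻¹ = F i yL
    · exact Or.inl (Subtype.ext hne)
    refine Or.inr ?_
    have hua : uW ^ 2 ^ a = 1 := Subtype.ext (by
      rw [SubgroupClass.coe_pow]
      show u ^ 2 ^ a = 1
      rw [hudef, ← pow_mul, ← pow_add, show j i + a = e + 1 by have := hje i; omega, hgn])
    rcases reflection i.1.2.2 (hMq i.1) (hMc i.1) W uW (hfixU i) a (by have := hje i; omega) hua (hzU i) with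
      htriv | ⟨ha2, hfix, hcardq, hnondeg⟩
    · refine absurd ?_ hne
      rw [show F i yL = 1 from hFy.trans (MulEquiv.ext htriv)]
      group
    refine ⟨(F i).rangeRestrict uL, a - 2,
      by rw [Sylow.coe_mapSurjective]; exact ⟨uL, Subgroup.mem_sup_right (Subgroup.mem_zpowers u), rfl⟩, ?_, ?_⟩
    swap
    · refine Subtype.ext ?_
      rw [SubgroupClass.coe_pow, show a - 2 + 1 = a - 1 by omega]
      show F i uL ^ 2 ^ (a - 1) = F i yL
      rw [hFy, hFu, map_pow]
    let _ : CommGroup (Tb W) := { (inferInstance : Group (Tb W)) with mul_comm := Tb.comm (hMc i.1) W }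
    set q := i.1.1
    set Y := F i yL with hYdef
    have hroot : ∀ t : Tb W, ∃ s, s * s = t := fun t => by
      obtain ⟨s, hs, -⟩ := exists_sqrt i.1.2.2 (hMq i.1) W t
      exact ⟨s, hs⟩
    have hsq : ∀ t : Tb W, t * t = 1 → t = 1 := fun t ht => by
      obtain ⟨s, -, hu⟩ := exists_sqrt i.1.2.2 (hMq i.1) W (1 : Tb W)
      rw [hu t ht, ← hu 1 (one_mul 1)]
    have hY2 : ∀ t, Y (Y t) = t := fun t => by
      rw [← MulAut.mul_apply, hFy, ← map_mul, ← pow_add, ← two_mul, ← pow_succ',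
        Nat.sub_add_cancel (by omega : 1 ≤ a), hua, map_one, MulAut.one_apply]
    let y' : L i := p * yL * p⁻¹
    have hY' : F i p * Y * (F i p)⁻¹ = F i y' := by rw [map_mul, map_mul, map_inv]
    have hcomm : Commute Y (F i p * Y * (F i p)⁻¹) := by
      rw [hY']
      have hg' : (p : G) * g * (p : G)⁻¹ ∈ (S : Subgroup G) := mul_mem (mul_mem hpS hgS) (inv_mem hpS)
      have h1 := hcommS i.1 g hgS _ hg'
      have h2' : centreAut (Mf i.1) ((yL * y' * yL⁻¹ * y'⁻¹ : L i) : G) = 1 := by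
        show centreAut (Mf i.1) (y * ((p : G) * y * (p : G)⁻¹) * y⁻¹ * ((p : G) * y * (p : G)⁻¹)⁻¹) = 1
        rw [hy, ← conj_pow, map_mul, map_mul, map_mul, map_inv, map_inv, h1.eq, mul_inv_cancel_right, mul_inv_cancel]
      have h3 : F i (yL * y' * yL⁻¹ * y'⁻¹) = 1 := classAut_eq_one_of_centreAut W _ h2'
      rw [map_mul, map_mul, map_mul, map_inv, map_inv, mul_inv_eq_one, mul_inv_eq_iff_eq_mul] at h3
      exact h3
    have hUY : Commute (F i uL) Y := by
      rw [hFy, hFu, map_pow]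
      exact Commute.self_pow _ _
    have hfix' : ∀ t, Y t = t → F i uL t = t := fun t ht => hfix t (by rw [← hFy]; exact ht)
    refine Subtype.ext (conj_reflection (q := q) hsq hroot Y (F i uL) (F i p) hY2 hcomm hUY hfix' ?_ hne).eq
    -- signs
    intro α β hαY hβY hα hβ hα1
    by_contra hβ1
    obtain ⟨A, rfl⟩ := QuotientGroup.mk_surjective α
    obtain ⟨B, rfl⟩ := QuotientGroup.mk_surjective β
    rw [hY'] at hα hβ
    have hAB : Twist W.1 ρ A B 1 := twist_one_of_signs (hMc i.1) (Subgroup.inclusion (hLle i) y') hα hβ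
    obtain ⟨T, hT, hnt⟩ := hnondeg A (by rw [← hFy]; exact hαY) hα1
    refine hnt ?_
    -- the elements commuting with `A` on `W`
    let Cm : Subgroup (Mf i.1) :=
      { carrier := {m | Twist W.1 ρ A m 1}
        one_mem' := fun v _ => by simp
        mul_mem' := fun {m m'} (hm : Twist W.1 ρ A m 1) (hm' : Twist W.1 ρ A m' 1) v hv => by
          rw [Subgroup.coe_mul, one_smul, map_mul, Module.End.mul_apply, Module.End.mul_apply,
            hm _ (W.2.1 _ m'.2 v hv), one_smul, hm' v hv, one_smul]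
        inv_mem' := fun {m} (hm : Twist W.1 ρ A m 1) v hv => by
          rw [Subgroup.coe_inv, one_smul]
          refine rho_injective (ρ := ρ) (m : G) ?_
          have h9 := hm _ (W.2.1 _ (inv_mem m.2) v hv)
          rw [apply_inv_apply, one_smul] at h9
          rw [← h9, apply_inv_apply] }
    have hRC : (scalarSub W).subgroupOf (Mf i.1) ≤ Cm := by
      rintro m ⟨-, s₀, hs₀⟩ v hv
      rw [one_smul, show ρ (m : G) v = s₀ • v from hs₀ v hv, map_smul,
        show ρ (m : G) (ρ (A : G) v) = s₀ • ρ (A : G) v from hs₀ _ (W.2.1 _ A.2 v hv)]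
    let Sm : Subgroup (Tb W) :=
      { carrier := {t | Y t = t⁻¹}
        one_mem' := by simp
        mul_mem' := fun {s t} (hs : Y s = s⁻¹) (ht : Y t = t⁻¹) => by
          show Y (s * t) = (s * t)⁻¹
          rw [map_mul, hs, ht, mul_inv]
        inv_mem' := fun {t} (ht : Y t = t⁻¹) => by
          show Y t⁻¹ = t⁻¹⁻¹
          rw [map_inv, ht] }
    set Za := Subgroup.zpowers (A : Tb W)
    set Zb := Subgroup.zpowers (B : Tb W)
    have hle : Za ⊔ Zb ≤ Sm := sup_le (Subgroup.zpowers_le.2 hαY) (Subgroup.zpowers_le.2 hβY)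
    have hdisj : Za ⊓ Zb = ⊥ := by
      rw [eq_bot_iff]
      rintro z ⟨hza, hzb⟩
      obtain ⟨m, rfl⟩ := Subgroup.mem_zpowers_iff.1 hza
      obtain ⟨n, hn⟩ := Subgroup.mem_zpowers_iff.1 hzb
      have e1 : F i y' ((A : Tb W) ^ m) = ((A : Tb W) ^ m)⁻¹ := by rw [map_zpow, hα, inv_zpow]
      have e2 : F i y' ((A : Tb W) ^ m) = (A : Tb W) ^ m := by rw [← hn, map_zpow, hβ]
      exact Subgroup.mem_bot.2 (hsq _ (mul_eq_one_iff_eq_inv.2 (e2.symm.trans e1)))
    have hcardge : ∀ z : Tb W, z ≠ 1 → q ≤ Nat.card (Subgroup.zpowers z) := by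
      intro z hz
      obtain ⟨l, hl⟩ := IsPGroup.iff_card.1
        (((hMq i.1).to_quotient ((scalarSub W).subgroupOf (Mf i.1))).to_subgroup (Subgroup.zpowers z))
      rw [hl]
      refine Nat.le_self_pow (fun h0 => hz ?_) q
      rw [h0, pow_zero, Nat.card_zpowers, orderOf_eq_one_iff] at hl
      exact hl
    have heqS : Za ⊔ Zb = Sm := by
      refine Subgroup.eq_of_le_of_card_ge hle ?_
      refine le_trans (le_trans (le_of_eq rfl) hcardq |>.trans' (le_of_eq (Nat.card_congr (Equiv.subtypeEquivRight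
        fun t => by rw [← hFy]; exact Iff.rfl)))) ?_
      have h1 := Subgroup.relIndex_mul_relIndex ⊥ Zb (Za ⊔ Zb) bot_le le_sup_right
      rw [Subgroup.relIndex_bot_left, Subgroup.relIndex_bot_left, Subgroup.relIndex_sup_right,
        ← Subgroup.inf_relIndex_right, inf_comm, hdisj, Subgroup.relIndex_bot_left] at h1
      rw [← h1, pow_two]
      exact Nat.mul_le_mul (hcardge _ hβ1) (hcardge _ hα1)
    have hTmem : (T : Tb W) ∈ Za ⊔ Zb := heqS ▸ (show Y (T : Tb W) = (T : Tb W)⁻¹ by rw [hFy]; exact hT)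
    have hmap : Za ⊔ Zb ≤ Cm.map (QuotientGroup.mk' _) :=
      sup_le (Subgroup.zpowers_le.2 ⟨A, (fun v _ => (one_smul k _).symm : Twist W.1 ρ A A 1), rfl⟩)
        (Subgroup.zpowers_le.2 ⟨B, hAB, rfl⟩)
    obtain ⟨T', hT', hTT'⟩ := hmap hTmem
    have hmemC : T'⁻¹ * T ∈ Cm := hRC (QuotientGroup.eq.1 hTT')
    have hfin := Cm.mul_mem hT' hmemC
    rw [mul_inv_cancel_left] at hfin
    exact hfin
  set N := (Cfsg.pPrimePCore 2 K).map K.subtype
  have hchar : ∀ φ : K ≃* K, ∀ z ∈ Cfsg.pPrimePCore 2 K, φ z ∈ Cfsg.pPrimePCore 2 K := fun φ z hz => by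
    refine mem_pPrimePCore_of_forall (ι := Unit) (fun _ => φ.symm.toMonoidHom) (fun c _ h => ?_) fun _ => ?_
    · simpa using h ()
    · simpa using hz
  have hNn : N.Normal := ⟨fun z hz a => by
    obtain ⟨z, hz, rfl⟩ := hz
    exact ⟨MulAut.conjNormal a z, hchar _ z hz, by simp⟩⟩
  haveI : (Cfsg.pPrimeCore 2 G).Normal := Cfsg.pPrimeCore_normal 2 G
  haveI : (Cfsg.pPrimeCore 2 K).Normal := Cfsg.pPrimeCore_normal 2 K
  have hR : (Cfsg.pPrimeCore 2 K).map K.subtype ≤ Cfsg.pPrimeCore 2 G := (map_pPrimeCore_normal K).le.trans inf_le_left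
  refine mem_pPrimePCore.2 (le_pCore (hNn.map _ (QuotientGroup.mk'_surjective _)) ?_ ⟨y, ⟨_, hgoal, rfl⟩, rfl⟩)
  rintro ⟨_, _, ⟨z, hz, rfl⟩, rfl⟩
  obtain ⟨l, hl⟩ := isPGroup_pCore 2 (K ⧸ Cfsg.pPrimeCore 2 K) ⟨_, mem_pPrimePCore.1 hz⟩
  refine ⟨l, Subtype.ext ?_⟩
  show QuotientGroup.mk' (Cfsg.pPrimeCore 2 G) (K.subtype z) ^ 2 ^ l = 1
  rw [← map_pow, ← map_pow]
  refine (QuotientGroup.eq_one_iff _).2 (hR ⟨z ^ 2 ^ l, ?_, rfl⟩)
  refine (QuotientGroup.eq_one_iff (N := Cfsg.pPrimeCore 2 K) _).1 ?_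
  show QuotientGroup.mk' (Cfsg.pPrimeCore 2 K) (z ^ 2 ^ l) = 1
  rw [map_pow]
  exact congrArg Subtype.val hl

end CfsgLib.GrossLength
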