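import Cfsg.Agent.GrossLength.Classes
import Cfsg.Agent.S3784

/-!
An exceptional element acts on the classes of a constituent as a reflection.
-/

set_option autoImplicit false
set_option linter.style.haveILetI false
set_option linter.unusedSectionVars false

namespace CfsgLib.GrossLength

open CfsgLib.HallHigmanB
open scoped commutatorElement

variable {k : Type*} [Field k] [IsAlgClosed k] {G : Type*} [Group G] [Finite G] {V : Type*} [AddCommGroup V]
  [Module k V] [FiniteDimensional k V] {ρ : G →* Module.End k V} {M : Subgroup G} [hMn : M.Normal]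

theorem twist_one_of_signs [CharP k 2] (hc : ∀ a ∈ M, ∀ b ∈ M, ⁅a, b⁆ ∈ Subgroup.centralizer (M : Set G))
    {W : Simple ρ M} (h : classFix W) {a b : M} (ha : classAut W h (a : Tb W) = (a : Tb W)⁻¹)
    (hb : classAut W h (b : Tb W) = (b : Tb W)) : Twist W.1 ρ a b 1 := by
  obtain ⟨c, hab⟩ := exists_twist hc W a.2 b.2
  obtain ⟨hc0, hinv⟩ := hab.inv_left a.2 b.2
  rw [classAut_mk, ← QuotientGroup.mk_inv] at ha
  rw [classAut_mk] at hb
  obtain ⟨r, hr⟩ := exists_smul_of_mk_eq ha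
  obtain ⟨r', hr'⟩ := exists_smul_of_mk_eq hb
  have h1 := hab.conj a.2 b.2 h.2
  have ha' := hMn.conj_mem _ a.2 (h : G)
  have hb' := hMn.conj_mem _ b.2 (h : G)
  have h2 : Twist W.1 ρ (a : G)⁻¹ b c := (h1.smul_left hb' ha' hr).smul_right hb' (M.inv_mem a.2) hr'
  have h3 : c = c⁻¹ := h2.unique hinv
  have h4 : (c - 1) ^ 2 = 0 := by
    rw [show (c - 1) ^ 2 = c ^ 2 - 1 ^ 2 from sub_pow_char c 1 (p := 2), one_pow, pow_two]
    nth_rewrite 1 [h3]
    rw [inv_mul_cancel₀ hc0, sub_self]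
  rw [show c = 1 from sub_eq_zero.1 (pow_eq_zero_iff (n := 2) (by norm_num) |>.1 h4)] at hab
  exact hab

/-- The translates of a simple `Q`-submodule by elements commuting with `Q` fill `W`. -/
theorem eq_sup_translates (W : Simple ρ M) {Q B : Subgroup G} (hB : B ≤ M) (hdec : ∀ m ∈ M, ∃ b ∈ B, ∃ a ∈ Q, b * a = m)
    (hQB : ∀ a ∈ Q, ∀ b ∈ B, Twist W.1 ρ a b 1) {U : Submodule k V} (hU : SimpleSub ρ Q U) (hUW : U ≤ W.1) :
    (⨆ b : B, U.map (ρ (b : G))) = W.1 ∧ ∀ b : B, Iso ρ Q U (U.map (ρ (b : G))) := by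
  have hb : ∀ b : B, Iso ρ Q U (U.map (ρ (b : G))) := fun b => by
    refine ⟨(ρ (b : G)) ∘ₗ U.subtype, fun a ha w w' hw => ?_,
      (rho_injective (ρ := ρ) (b : G)).comp U.subtype_injective, ?_⟩
    · simp only [LinearMap.comp_apply, Submodule.subtype_apply]
      rw [hw, hQB a ha b b.2 w (hUW w.2), one_smul]
    · rw [LinearMap.range_comp, Submodule.range_subtype]
  refine ⟨?_, hb⟩
  set Z := ⨆ b : B, U.map (ρ (b : G))
  have hle : Z ≤ W.1 := iSup_le fun b => by
    rintro _ ⟨u, hu, rfl⟩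
    exact W.2.1 _ (hB b.2) u (hUW hu)
  refine (W.2.2.2 Z ?_ hle).resolve_left ?_
  · intro m hm v hv
    refine Submodule.iSup_induction _ (motive := fun v => ρ m v ∈ Z) hv (fun b w hw => ?_) (by simp)
      (fun x y hx hy => by rw [map_add]; exact add_mem hx hy)
    obtain ⟨u, hu, rfl⟩ := hw
    obtain ⟨b', hb', a, ha, rfl⟩ := hdec m hm
    refine Submodule.mem_iSup_of_mem (⟨b' * b, B.mul_mem hb' b.2⟩ : B) ⟨ρ a u, hU.1 a ha u hu, ?_⟩
    show ρ (b' * b) (ρ a u) = ρ (b' * a) (ρ (b : G) u)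
    rw [map_mul, map_mul, Module.End.mul_apply, Module.End.mul_apply, hQB a ha b b.2 u (hUW hu), one_smul]
  · intro h0
    refine hU.2.1 (eq_bot_iff.2 (le_trans ?_ (h0.le)))
    refine le_trans ?_ (le_iSup (fun b : B => U.map (ρ (b : G))) 1)
    rw [OneMemClass.coe_one, map_one, Module.End.one_eq_id, Submodule.map_id]

/-- The exceptional prime powers. -/
theorem exception_two {q a b : ℕ} (hq : q.Prime) (ha : 1 ≤ a) (hb : 1 ≤ b) (h : 2 ^ a - 1 = q ^ b) : b = 1 := by
  have h1 : 2 ^ a = q ^ b + 1 := by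
    have := Nat.one_le_pow a 2 two_pos
    omega
  rcases Cfsg.Agent.S3784.result 2 q a b Nat.prime_two hq ha hb h1 with ⟨-, h2, -⟩ | ⟨-, h2, -, -⟩ | ⟨h2, -⟩
  · exact h2
  · subst h2
    have := hq.two_le
    have h5 := Nat.le_self_pow (n := b) (by omega) q
    omega
  · exfalso
    rcases a with _ | _ | _ | _ | a <;> simp [pow_succ] at h2
    have := Nat.one_le_pow a 2 two_pos
    omega

/-- On a constituent fixed by an exceptional element `u`, the involution of `⟨u⟩` is a reflection. -/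
theorem reflection [CharP k 2] {q : ℕ} [hq : Fact q.Prime] (hq2 : q ≠ 2) (hMq : IsPGroup q M)
    (hc : ∀ a ∈ M, ∀ b ∈ M, ⁅a, b⁆ ∈ Subgroup.centralizer (M : Set G)) (W : Simple ρ M) (u : classFix W)
    (huW : W.1.map (ρ (u : G)) = W.1) (a : ℕ) (ha : 1 ≤ a) (hua : u ^ 2 ^ a = 1)
    (hdef : ∀ w ∈ W.1, ((ρ (u : G) - 1) ^ (2 ^ a - 1) : Module.End k V) w = 0) :
    (∀ t : Tb W, classAut W (u ^ 2 ^ (a - 1)) t = t) ∨
      (2 ≤ a ∧ (∀ t : Tb W, classAut W (u ^ 2 ^ (a - 1)) t = t → classAut W u t = t) ∧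
        Nat.card {t : Tb W // classAut W (u ^ 2 ^ (a - 1)) t = t⁻¹} ≤ q ^ 2 ∧
        ∀ a₀ : M, classAut W (u ^ 2 ^ (a - 1)) (a₀ : Tb W) = (a₀ : Tb W)⁻¹ → (a₀ : Tb W) ≠ 1 →
          ∃ b₀ : M, classAut W (u ^ 2 ^ (a - 1)) (b₀ : Tb W) = (b₀ : Tb W)⁻¹ ∧ ¬ Twist W.1 ρ a₀ b₀ 1) := by
  classical
  let _ : CommGroup (Tb W) := { (inferInstance : Group (Tb W)) with mul_comm := Tb.comm hc W }
  set y := u ^ 2 ^ (a - 1) with hy
  set Y := classAut W y with hY
  by_cases hYt : ∀ t, Y t = t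
  · exact Or.inl hYt
  right
  have hyy : y * y = 1 := by rw [hy, ← pow_add, ← mul_two, ← pow_succ, Nat.sub_add_cancel ha, hua]
  have hYY : ∀ t, Y (Y t) = t := fun t => by
    rw [hY, ← MulAut.mul_apply, ← map_mul, hyy, map_one, MulAut.one_apply]
  have hdec := exists_decomp hc hq2 hMq W Y hYY
  -- the classes inverted and fixed by `Y`
  let Sm : Subgroup (Tb W) :=
    { carrier := {t | Y t = t⁻¹}
      one_mem' := by simp
      mul_mem' := fun {s t} (hs : Y s = s⁻¹) (ht : Y t = t⁻¹) => by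
        show Y (s * t) = (s * t)⁻¹
        rw [map_mul, hs, ht, mul_inv]
      inv_mem' := fun {t} (ht : Y t = t⁻¹) => by
        show Y t⁻¹ = t⁻¹⁻¹
        rw [map_inv, ht] }
  let Sp : Subgroup (Tb W) :=
    { carrier := {t | Y t = t}
      one_mem' := by simp
      mul_mem' := fun {s t} (hs : Y s = s) (ht : Y t = t) => by show Y (s * t) = s * t; rw [map_mul, hs, ht]
      inv_mem' := fun {t} (ht : Y t = t) => by show Y t⁻¹ = t⁻¹; rw [map_inv, ht] }
  set cl := QuotientGroup.mk' ((scalarSub W).subgroupOf M)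
  set Q := (Sm.comap cl).map M.subtype with hQ
  set B := (Sp.comap cl).map M.subtype with hB
  have hQmem : ∀ {t : G}, t ∈ Q → ∃ ht : t ∈ M, Y ((⟨t, ht⟩ : M) : Tb W) = ((⟨t, ht⟩ : M) : Tb W)⁻¹ := by
    rintro _ ⟨t, ht, rfl⟩; exact ⟨t.2, ht⟩
  have hBmem : ∀ {t : G}, t ∈ B → ∃ ht : t ∈ M, Y ((⟨t, ht⟩ : M) : Tb W) = ((⟨t, ht⟩ : M) : Tb W) := by
    rintro _ ⟨t, ht, rfl⟩; exact ⟨t.2, ht⟩
  have hQB : ∀ s ∈ Q, ∀ b ∈ B, Twist W.1 ρ s b 1 := fun s hs b hb => by
    obtain ⟨hsM, hs'⟩ := hQmem hs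
    obtain ⟨hbM, hb'⟩ := hBmem hb
    exact twist_one_of_signs hc y hs' hb'
  have hsplit : ∀ m ∈ M, ∃ b ∈ B, ∃ s ∈ Q, b * s = m := by
    intro m hm
    obtain ⟨tp, tm, hp', hm', hpm⟩ := hdec ((⟨m, hm⟩ : M) : Tb W)
    obtain ⟨b, rfl⟩ := QuotientGroup.mk_surjective tp
    refine ⟨b, ⟨b, hp', rfl⟩, (b : G)⁻¹ * m, ⟨b⁻¹ * ⟨m, hm⟩, ?_, rfl⟩, mul_inv_cancel_left _ _⟩
    show Y ((b⁻¹ * ⟨m, hm⟩ : M) : Tb W) = _
    rw [show cl (b⁻¹ * ⟨m, hm⟩) = tm by
      show ((b⁻¹ * ⟨m, hm⟩ : M) : Tb W) = tm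
      rw [QuotientGroup.mk_mul, QuotientGroup.mk_inv, ← hpm, inv_mul_cancel_left]]
    rw [QuotientGroup.mk_mul, QuotientGroup.mk_inv, ← hpm, inv_mul_cancel_left]
    exact hm'
  -- distinct inverted classes are told apart inside `Q`
  have hnondeg : ∀ a₀ : M, Y (a₀ : Tb W) = (a₀ : Tb W)⁻¹ → (a₀ : Tb W) ≠ 1 →
      ∃ b₀ : M, Y (b₀ : Tb W) = (b₀ : Tb W)⁻¹ ∧ ¬ Twist W.1 ρ a₀ b₀ 1 := by
    intro a₀ ha₀ hne
    by_contra hcon
    push Not at hcon
    refine hne ((QuotientGroup.eq_one_iff a₀).2 (Subgroup.mem_subgroupOf.2 (mem_scalarSub_of_commute a₀.2 ?_)))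
    intro m hm
    obtain ⟨b, hb, s, hs, rfl⟩ := hsplit m hm
    obtain ⟨hbM, hb'⟩ := hBmem hb
    obtain ⟨hsM, hs'⟩ := hQmem hs
    have e1 : Twist W.1 ρ a₀ b 1 := hQB _ ⟨a₀, ha₀, rfl⟩ b hb
    have e2 := hcon ⟨s, hsM⟩ hs'
    intro w hw
    rw [map_mul, Module.End.mul_apply, Module.End.mul_apply, e1 _ (W.2.1 s hsM w hw), e2 w hw, one_smul, one_smul,
      one_smul]
  -- a simple `Q`-submodule of `W` fixed by `u`
  have huQ : ∀ s ∈ Q, (u : G) * s * (u : G)⁻¹ ∈ Q := by
    rintro _ ⟨t, ht, rfl⟩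
    refine ⟨⟨(u : G) * t * (u : G)⁻¹, hMn.conj_mem _ t.2 _⟩, ?_, rfl⟩
    show Y (cl _) = (cl _)⁻¹
    rw [show cl ⟨(u : G) * t * (u : G)⁻¹, hMn.conj_mem _ t.2 _⟩ = classAut W u (cl t) from (classAut_mk W u t).symm,
      hY, ← MulAut.mul_apply, ← map_mul, hy, ← pow_succ, pow_succ', map_mul, MulAut.mul_apply, ← hy, ← hY,
      show Y (cl t) = (cl t)⁻¹ from ht, map_inv]
  have huN : (u : G) ∈ Subgroup.normalizer (Q : Set G) := Subgroup.mem_normalizer_fintype fun s hs => huQ s hs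
  have hQM : Q ≤ M := Subgroup.map_subtype_le _
  obtain ⟨U₁, hU₁, hU₁W⟩ := exists_simple_le (ρ := ρ) (M := Q) (W := W.1) (fun g hg => W.2.1 g (hQM hg)) W.2.2.1
  obtain ⟨hfill, hisob⟩ := eq_sup_translates W (Subgroup.map_subtype_le _) hsplit hQB hU₁ hU₁W
  have huU : Iso ρ Q U₁ (U₁.map (ρ (u : G))) := by
    by_contra hcon
    have hU' := simple_map hU₁ huN
    haveI := Fintype.ofFinite B
    have h1 : U₁.map (ρ (u : G)) ⊓ (Finset.univ : Finset B).sup (fun b => U₁.map (ρ (b : G))) = ⊥ :=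
      inf_sup_eq_bot (fun b => Iso.simpleSub hU₁ (hisob b)) hU' _ fun b _ h => hcon
        (iso_symm hU'.1 (iso_trans h (iso_symm hU₁.1 (hisob b))))
    rw [Finset.sup_univ_eq_iSup, hfill, inf_eq_left.2 (le_trans (Submodule.map_mono hU₁W) huW.le)] at h1
    exact hU'.2.1 h1
  obtain ⟨U, hU, hUW, -, hUu⟩ := exists_invariant hU₁ huN huU hU₁W huW.le
  obtain ⟨hfill, -⟩ := eq_sup_translates W (Subgroup.map_subtype_le _) hsplit hQB hU hUW
  -- a member of `Q` scalar on `U` is a scalar on `W`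
  have hscal : ∀ t : M, Y (t : Tb W) = (t : Tb W)⁻¹ → (∃ c : k, ∀ v ∈ U, ρ (t : G) v = c • v) → (t : Tb W) = 1 := by
    rintro t ht ⟨c, hct⟩
    by_contra hne
    obtain ⟨s, hs, hns⟩ := hnondeg t ht hne
    obtain ⟨d, hd⟩ := exists_twist hc W t.2 s.2
    refine hns ?_
    obtain ⟨v, hv, hv0⟩ := (Submodule.ne_bot_iff U).1 hU.2.1
    have h1 := hd v (hUW hv)
    rw [hct _ (hU.1 (s : G) ⟨s, hs, rfl⟩ v hv), hct v hv, map_smul, smul_smul] at h1
    have hne0 : ρ (s : G) v ≠ 0 := fun h0 => hv0 (rho_injective (ρ := ρ) (s : G) (by rw [h0, map_zero]))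
    have hc0 : c ≠ 0 := fun h0 => hv0 (rho_injective (ρ := ρ) (t : G) (by rw [hct v hv, h0, zero_smul, map_zero]))
    rw [← sub_eq_zero, ← sub_smul, smul_eq_zero] at h1
    rcases h1 with h1 | h1
    · rw [sub_eq_zero] at h1
      rwa [show d = 1 from (mul_left_eq_self₀.1 h1.symm).resolve_right hc0] at hd
    · exact absurd h1 hne0
  -- restriction to `U`
  haveI : Nontrivial U := Submodule.nontrivial_iff_ne_bot.2 hU.2.1
  haveI : CharP (Module.End k U) 2 := charP_of_injective_algebraMap (algebraMap k (Module.End k U)).injective 2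
  set S := stab ρ U
  have hQS : Q ≤ S := fun s hs => Submodule.eq_of_le_of_finrank_le
    (by rintro _ ⟨v, hv, rfl⟩; exact hU.1 s hs v hv) (finrank_map_rho s U).ge
  set θ : S →* (Module.End k U)ˣ := (restr ρ U).toHomUnits with hθ
  have hθv : ∀ (g : S) (v : U), (((θ g : (Module.End k U)ˣ) : Module.End k U) v : V) = ρ (g : G) v := fun g v => rfl
  set Qb := (Q.subgroupOf S).map θ
  let us : S := ⟨(u : G), hUu⟩
  have hcomm_scalar : ∀ t : M, ∀ ht : (t : G) ∈ Q, Commute (θ us ^ 2 ^ (a - 1)) (θ ⟨t, hQS ht⟩) → (t : Tb W) = 1 := by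
    intro t ht hcm
    obtain ⟨_, hY'⟩ := hQmem ht
    have hyQ : (y : G) * t * (y : G)⁻¹ ∈ Q := by
      refine ⟨⟨(y : G) * t * (y : G)⁻¹, hMn.conj_mem _ t.2 _⟩, ?_, rfl⟩
      show Y (cl _) = (cl _)⁻¹
      rw [show cl ⟨(y : G) * t * (y : G)⁻¹, hMn.conj_mem _ t.2 _⟩ = Y (cl t) from (classAut_mk W y t).symm, hYY,
        show Y (cl t) = (cl t)⁻¹ from hY', inv_inv]
    let r : M := ⟨(y : G) * t * (y : G)⁻¹ * (t : G)⁻¹, hQM (Q.mul_mem hyQ (Q.inv_mem ht))⟩
    have hr : (r : Tb W) = ((t : Tb W) * (t : Tb W))⁻¹ := by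
      rw [show r = ⟨(y : G) * t * (y : G)⁻¹, hMn.conj_mem _ t.2 _⟩ * t⁻¹ from rfl, QuotientGroup.mk_mul,
        QuotientGroup.mk_inv, ← classAut_mk W y t, mul_inv]
      exact congrArg (· * _) hY'
    have h1 := hscal r (by rw [hr, map_inv, map_mul, show Y (t : Tb W) = (t : Tb W)⁻¹ from hY', ← mul_inv]) ⟨1, fun v hv => ?_⟩
    · rw [hr, inv_eq_one] at h1
      obtain ⟨s, -, huniq⟩ := exists_sqrt hq2 hMq W (1 : Tb W)
      rw [huniq _ h1, ← huniq 1 (one_mul 1)]
    · rw [one_smul]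
      show ρ ((y : G) * t * (y : G)⁻¹ * (t : G)⁻¹) v = v
      have hyS : (y : G) ∈ S := by rw [hy, SubgroupClass.coe_pow]; exact S.pow_mem hUu _
      have e : θ (⟨(y : G), hyS⟩ * ⟨t, hQS ht⟩ * ⟨(y : G), hyS⟩⁻¹ * ⟨t, hQS ht⟩⁻¹) = 1 := by
        rw [show (⟨(y : G), hyS⟩ : S) = us ^ 2 ^ (a - 1) from Subtype.ext (SubgroupClass.coe_pow u _), map_mul,
          map_mul, map_mul, map_inv, map_inv, map_pow, hcm.eq]
        group
      have e2 := hθv (⟨(y : G), hyS⟩ * ⟨t, hQS ht⟩ * ⟨(y : G), hyS⟩⁻¹ * ⟨t, hQS ht⟩⁻¹) ⟨v, hv⟩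
      rw [e, Units.val_one, Module.End.one_apply] at e2
      exact e2.symm
  obtain ⟨tm, htm, htm1⟩ : ∃ t : M, Y (t : Tb W) = (t : Tb W)⁻¹ ∧ (t : Tb W) ≠ 1 := by
    by_contra hcon
    push Not at hcon
    refine hYt fun t => ?_
    obtain ⟨tp, tm, hp', hm', rfl⟩ := hdec t
    obtain ⟨m, rfl⟩ := QuotientGroup.mk_surjective tm
    rw [hcon m hm', mul_one, hp']
  have hT1 : θ us ≠ 1 := fun h1 => htm1 (hcomm_scalar tm ⟨tm, htm, rfl⟩ (by rw [h1, one_pow]; exact Commute.one_left _))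
  have hTn : θ us ^ 2 ^ a = 1 := by
    rw [← map_pow, show us ^ 2 ^ a = 1 from Subtype.ext ((SubgroupClass.coe_pow u _).symm.trans (by rw [hua]; rfl)),
      map_one]
  have hirr : ∀ U' : Submodule k U, (∀ s ∈ Qb, ∀ w ∈ U', (s : Module.End k U) w ∈ U') → U' = ⊥ ∨ U' = ⊤ := by
    intro U' hU'
    rcases hU.2.2 (U'.map U.subtype) (by
        rintro s hs _ ⟨w, hw, rfl⟩
        exact ⟨_, hU' _ ⟨⟨s, hQS hs⟩, hs, rfl⟩ w hw, rfl⟩) (Submodule.map_subtype_le _ _) with h1 | h1
    · exact Or.inl (Submodule.map_injective_of_injective U.subtype_injective (h1.trans (Submodule.map_bot _).symm))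
    · exact Or.inr (Submodule.map_injective_of_injective U.subtype_injective
        (h1.trans (Submodule.map_subtype_top U).symm))
  have hQq : IsPGroup q Q := hMq.to_le hQM
  haveI : Fact (Nat.Prime 2) := ⟨Nat.prime_two⟩
  haveI : Finite Qb := Finite.of_surjective
    (fun g : Q.subgroupOf S => (⟨θ g, g, g.2, rfl⟩ : Qb)) fun ⟨_, g, hg, e⟩ => ⟨⟨g, hg⟩, Subtype.ext e⟩
  have hcard : (Nat.card Qb : k) ≠ 0 := by
    obtain ⟨i, hi⟩ := IsPGroup.iff_card.1 (show IsPGroup q Qb from (hQq.comap_of_injective S.subtype S.subtype_injective).map θ)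
    rw [show Nat.card Qb = q ^ i from hi]
    intro h0
    exact hq2 ((Nat.prime_dvd_prime_iff_eq Nat.prime_two hq.out).1
      (Nat.prime_two.dvd_of_dvd_pow ((CharP.cast_eq_zero_iff k 2 _).1 h0))).symm
  set N := ((θ us : (Module.End k U)ˣ) : Module.End k U) - 1 with hN
  have hNv : ∀ (i : ℕ) (v : U), ((N ^ i) v : V) = ((ρ (u : G) - 1) ^ i : Module.End k V) (v : V) := by
    intro i v
    induction i with
    | zero => simp
    | succ i IH => rw [pow_succ', Module.End.mul_apply, pow_succ', Module.End.mul_apply, ← IH]; rfl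
  have hN0 : N ^ (2 ^ a - 1) = 0 := LinearMap.ext fun v => Subtype.ext ((hNv _ v).trans (hdef v (hUW v.2)))
  obtain ⟨s, hs0, hsmin⟩ : ∃ s, N ^ s = 0 ∧ ∀ i < s, N ^ i ≠ 0 :=
    ⟨Nat.find (⟨_, hN0⟩ : ∃ s, N ^ s = 0), Nat.find_spec (⟨_, hN0⟩ : ∃ s, N ^ s = 0), fun i hi =>
      Nat.find_min _ hi⟩
  have hspos : 0 < s := Nat.pos_of_ne_zero fun h0 => by rw [h0, pow_zero] at hs0; exact one_ne_zero hs0
  have hsle : s ≤ 2 ^ a - 1 := not_lt.1 fun h => hsmin _ h hN0
  haveI : Finite Qb := Finite.of_surjective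
    (fun g : Q.subgroupOf S => (⟨θ g, g, g.2, rfl⟩ : Qb)) fun ⟨_, g, hg, e⟩ => ⟨⟨g, hg⟩, Subtype.ext e⟩
  obtain ⟨hlow, heq⟩ := critical Qb hcard hirr (θ us) (by
      rintro _ ⟨g, hg, rfl⟩
      refine ⟨us * g * us⁻¹, huQ _ hg, ?_⟩
      rw [map_mul, map_mul, map_inv]) a hTn hT1 (by
      rintro _ ⟨g, hg, rfl⟩ i hi hih hcm
      obtain ⟨hgM, -⟩ := hQmem hg
      have h1 : (⟨(g : G), hgM⟩ : M) ∈ (scalarSub W).subgroupOf M := by
        refine (QuotientGroup.eq_one_iff _).1 (hcomm_scalar ⟨(g : G), hgM⟩ hg ?_)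
        obtain ⟨e, w, hw, rfl⟩ : ∃ e w, ¬ 2 ∣ w ∧ i = 2 ^ e * w :=
          ⟨_, _, Nat.not_dvd_ordCompl Nat.prime_two hi.ne', (Nat.ordProj_mul_ordCompl_eq_self i 2).symm⟩
        have he : e < a := (Nat.pow_lt_pow_iff_right one_lt_two).1
          (lt_of_le_of_lt (Nat.le_mul_of_pos_right _ (Nat.pos_of_ne_zero (by rintro rfl; exact hw (dvd_zero 2)))) hih)
        obtain ⟨w', hw'⟩ := exists_pow_eq_self_of_coprime (x := θ us) (n := w)
          (Nat.Coprime.coprime_dvd_right (orderOf_dvd_of_pow_eq_one hTn)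
            ((Nat.prime_two.coprime_iff_not_dvd.2 hw).symm.pow_right a))
        have h2 : Commute (θ us ^ (2 ^ e * w)) (θ g) := hcm
        have h3 := h2.pow_left w'
        rw [← pow_mul, show 2 ^ e * w * w' = w * w' * 2 ^ e by ring, pow_mul, pow_mul, hw'] at h3
        have h4 := h3.pow_left (2 ^ (a - 1 - e))
        rwa [← pow_mul, ← pow_add, Nat.add_sub_cancel' (by omega : e ≤ a - 1)] at h4
      obtain ⟨-, c, hct⟩ := Subgroup.mem_subgroupOf.1 h1
      exact ⟨c, LinearMap.ext fun v => Subtype.ext (by rw [hθv, hct v (hUW v.2)]; rfl)⟩) s hs0 (hsmin _ (by omega))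
  have hs1 : s + 1 = 2 ^ a := by
    have := Nat.one_le_pow a 2 two_pos
    omega
  have hdim := heq hs1
  -- the dimension is `q`
  obtain ⟨b, hb⟩ := exists_pow_finrank (ρ := ρ) Q hQq U hU
  have hb1 : 1 ≤ b := by
    by_contra h0
    rw [show b = 0 by omega, pow_zero] at hb
    obtain ⟨v₀, -, hv₀⟩ := finrank_eq_one_iff'.1 hb
    refine htm1 (hscal tm htm ?_)
    obtain ⟨r, hr⟩ := hv₀ ⟨_, hU.1 _ ⟨tm, htm, rfl⟩ v₀ v₀.2⟩
    refine ⟨r, fun v hv => ?_⟩
    obtain ⟨l, hl⟩ := hv₀ ⟨v, hv⟩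
    have hl' : l • (v₀ : V) = v := congrArg Subtype.val hl
    have hr' : r • (v₀ : V) = ρ (tm : G) v₀ := congrArg Subtype.val hr
    rw [← hl', map_smul, ← hr', smul_comm]
  have hqb := exception_two hq.out ha hb1 (by rw [← hb, hdim]; omega)
  have hdimq : Module.finrank k U = q := by rw [hb, hqb, pow_one]
  have ha2 : 2 ≤ a := by
    by_contra h0
    rw [show a = 1 by omega] at hs1
    have := hq.out.two_le
    omega
  refine ⟨ha2, ?_, ?_, hnondeg⟩
  · -- the fixed classes are fixed by `u`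
    let Hs : Submodule k (U →ₗ[k] V) := homSub ρ Q U ⊓ intoSub U W.1
    set Ti : U →ₗ[k] U := (((θ us)⁻¹ : (Module.End k U)ˣ) : Module.End k U)
    have hTiT : ∀ v : U, Ti (((θ us : (Module.End k U)ˣ) : Module.End k U) v) = v := fun v => by
      rw [← Module.End.mul_apply, Units.inv_mul, Module.End.one_apply]
    have hTi : ∀ v : U, (Ti v : V) = ρ (u : G)⁻¹ (v : V) := fun v => by
      refine (inv_apply_apply (ρ := ρ) (u : G) _).symm.trans (congrArg _ ?_)
      have h1 := hθv us (Ti v)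
      rw [← Module.End.mul_apply, Units.mul_inv, Module.End.one_apply] at h1
      exact h1.symm
    let K : Module.End k Hs :=
      { toFun := fun f => ⟨ρ (u : G) ∘ₗ (f : U →ₗ[k] V) ∘ₗ Ti, fun g hg w w' hww => by
            simp only [LinearMap.comp_apply]
            have h1 : (Ti w' : V) = ρ ((u : G)⁻¹ * g * (u : G)) (Ti w : V) := by
              rw [hTi, hTi, hww, map_mul, map_mul, Module.End.mul_apply, Module.End.mul_apply, apply_inv_apply]
            rw [f.2.1 _ ((Subgroup.mem_normalizer_iff''.1 huN g).1 hg) _ _ h1, ← Module.End.mul_apply, ← map_mul,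
              ← Module.End.mul_apply, ← map_mul]
            group,
            fun w => huW.le ⟨_, f.2.2 (Ti w), rfl⟩⟩
        map_add' := fun f g => by ext w; simp
        map_smul' := fun c f => by ext w; simp }
    have hKv : ∀ (f : Hs) (w : U), (K f : U →ₗ[k] V) w = ρ (u : G) ((f : U →ₗ[k] V) (Ti w)) := fun f w => rfl
    have hKi : ∀ (i : ℕ) (f : Hs) (w : U),
        ((K ^ i) f : U →ₗ[k] V) w = ρ ((u : G) ^ i) ((f : U →ₗ[k] V) ((Ti ^ i) w)) := by
      intro i
      induction i with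
      | zero => intro f w; simp
      | succ i IH =>
        intro f w
        rw [pow_succ' (M := Module.End k Hs), Module.End.mul_apply, hKv, IH, pow_succ (M := Module.End k U),
          Module.End.mul_apply, pow_succ', map_mul, Module.End.mul_apply]
    have hKn : ∀ f : Hs, (K ^ 2 ^ a) f = f := fun f => Subtype.ext (LinearMap.ext fun w => by
      rw [hKi, show (u : G) ^ 2 ^ a = 1 from (SubgroupClass.coe_pow u _).symm.trans (by rw [hua]; rfl), map_one,
        show Ti ^ 2 ^ a = 1 by rw [← Units.val_pow_eq_pow_val, inv_pow, hTn, inv_one, Units.val_one]]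
      rfl)
    have hfix : ∀ f : Hs, K f = f := by
      intro f
      by_contra hf
      have hnil : ((K - 1) ^ 2 ^ a : Module.End k Hs) f = 0 := by
        haveI : Nontrivial Hs := ⟨⟨K f, f, hf⟩⟩
        haveI : CharP (Module.End k Hs) 2 := charP_of_injective_algebraMap (algebraMap k (Module.End k Hs)).injective 2
        rw [sub_pow_char_pow_of_commute (R := Module.End k Hs) 2 a (Commute.one_right K), one_pow, LinearMap.sub_apply, hKn,
          Module.End.one_apply, sub_self]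
      obtain ⟨m, hm0, hmmin⟩ : ∃ m, ((K - 1) ^ m : Module.End k Hs) f = 0 ∧ ∀ i < m, ((K - 1) ^ i : Module.End k Hs) f ≠ 0 :=
        ⟨Nat.find (⟨_, hnil⟩ : ∃ m, ((K - 1) ^ m : Module.End k Hs) f = 0), Nat.find_spec (⟨_, hnil⟩ : ∃ m, ((K - 1) ^ m : Module.End k Hs) f = 0),
          fun i hi => Nat.find_min _ hi⟩
      have hm2 : 2 ≤ m := by
        by_contra h0
        rcases Nat.lt_or_ge 0 m with h1 | h1
        · rw [show m = 1 by omega, pow_one, LinearMap.sub_apply, Module.End.one_apply, sub_eq_zero] at hm0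
          exact hf hm0
        · rw [show m = 0 by omega, pow_zero, Module.End.one_apply] at hm0
          exact hf (by rw [hm0, map_zero])
      set g := ((K - 1) ^ (m - 2) : Module.End k Hs) f
      set ψ := (K - 1) g with hψ
      have hψ0 : ψ ≠ 0 := fun h0 => hmmin (m - 1) (by omega) (by
        rw [show m - 1 = (m - 2) + 1 by omega, pow_succ', Module.End.mul_apply]; exact h0)
      have hψK : (K - 1) ψ = 0 := by
        rw [hψ, ← Module.End.mul_apply, ← Module.End.mul_apply, ← pow_two, ← pow_add,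
          show 2 + (m - 2) = m by omega, hm0]
      have hKψ : K ψ = ψ := sub_eq_zero.1 hψK
      have hψu : ∀ w : U, ρ (u : G) ((ψ : U →ₗ[k] V) w) =
          (ψ : U →ₗ[k] V) (((θ us : (Module.End k U)ˣ) : Module.End k U) w) := fun w => by
        nth_rewrite 2 [← hKψ]
        rw [hKv, hTiT]
      have hgu : ∀ w : U, ρ (u : G) ((g : U →ₗ[k] V) w) = (g : U →ₗ[k] V)
          (((θ us : (Module.End k U)ˣ) : Module.End k U) w) +
          (ψ : U →ₗ[k] V) (((θ us : (Module.End k U)ˣ) : Module.End k U) w) := fun w => by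
        rw [show ψ = K g - g from rfl, Submodule.coe_sub, LinearMap.sub_apply, hKv, hTiT, add_sub_cancel]
      have hiter : ∀ (i : ℕ) (w : U), ((ρ (u : G) - 1) ^ i : Module.End k V) ((g : U →ₗ[k] V) w) = (g : U →ₗ[k] V) ((N ^ i) w) +
          i • (ψ : U →ₗ[k] V) ((((θ us : (Module.End k U)ˣ) : Module.End k U) * N ^ (i - 1)) w) := by
        intro i
        induction i with
        | zero => intro w; simp
        | succ i IH =>
          intro w
          rw [pow_succ' (M := Module.End k V), Module.End.mul_apply, IH]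
          rcases i with _ | i
          · simp only [pow_zero, Module.End.one_apply, zero_smul, add_zero, zero_add, LinearMap.sub_apply,
              Nat.sub_self, mul_one, one_smul, pow_one]
            rw [hgu, hN, LinearMap.sub_apply, Module.End.one_apply, map_sub]
            abel
          · set T' := ((θ us : (Module.End k U)ˣ) : Module.End k U)
            have e1 : ∀ z : U, (ρ (u : G) - 1) ((g : U →ₗ[k] V) z) = (g : U →ₗ[k] V) (N z) + (ψ : U →ₗ[k] V) (T' z) := by
              intro z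
              rw [LinearMap.sub_apply, Module.End.one_apply, hgu, hN, LinearMap.sub_apply, Module.End.one_apply, map_sub]
              abel
            have e2 : ∀ z : U, (ρ (u : G) - 1) ((ψ : U →ₗ[k] V) z) = (ψ : U →ₗ[k] V) (N z) := by
              intro z
              rw [LinearMap.sub_apply, Module.End.one_apply, hψu, hN, LinearMap.sub_apply, Module.End.one_apply, map_sub]
            have e3 : N * (T' * N ^ i) = T' * N ^ (i + 1) := by
              rw [← mul_assoc, (show Commute N T' from (Commute.refl T').sub_left (Commute.one_left _)).eq, mul_assoc,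
                ← pow_succ']
            rw [map_add, map_nsmul, e1, e2, ← Module.End.mul_apply, ← Module.End.mul_apply, ← Module.End.mul_apply,
              Nat.add_sub_cancel, e3, ← pow_succ', Nat.add_sub_cancel, succ_nsmul (n := i + 1)]
            abel
      obtain ⟨v, hv⟩ : ∃ v, (N ^ (s - 1)) v ≠ 0 := by
        by_contra hall
        push Not at hall
        exact hsmin _ (by omega) (LinearMap.ext hall)
      have h1 := hiter s v
      rw [show (2 : ℕ) ^ a - 1 = s by omega] at hdef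
      rw [hdef _ (g.2.2 v), hs0, LinearMap.zero_apply, map_zero, zero_add, Module.End.mul_apply] at h1
      have hodd : (s : k) ≠ 0 := fun h0 => by
        obtain ⟨l, hl⟩ := (CharP.cast_eq_zero_iff k 2 s).1 h0
        have h9 : 2 ^ a = 2 * 2 ^ (a - 1) := by rw [← pow_succ', Nat.sub_add_cancel ha]
        omega
      rw [← Nat.cast_smul_eq_nsmul k, eq_comm, smul_eq_zero] at h1
      have hψi : Function.Injective (ψ : U →ₗ[k] V) :=
        hU.injective_of_ne_zero ψ.2.1 fun h0 => hψ0 (Subtype.ext h0)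
      have h2 : ((θ us : (Module.End k U)ˣ) : Module.End k U) ((N ^ (s - 1)) v) = 0 :=
        hψi ((h1.resolve_left hodd).trans (map_zero _).symm)
      refine hv ?_
      rw [← hTiT ((N ^ (s - 1)) v), h2, map_zero]
    intro t ht
    obtain ⟨t, rfl⟩ := QuotientGroup.mk_surjective t
    have hloc : ∀ b ∈ B, ∀ v ∈ U, ρ ((u : G) * b * (u : G)⁻¹) v = ρ b v := by
      intro b hb v hv
      let f : Hs := ⟨ρ b ∘ₗ U.subtype, fun g hg w w' hww => by
          simp only [LinearMap.comp_apply, Submodule.subtype_apply]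
          rw [hww, hQB g hg b hb w (hUW w.2), one_smul],
        fun w => W.2.1 b (Subgroup.map_subtype_le _ hb) _ (hUW w.2)⟩
      have h1 := congrArg (fun z : Hs => (z : U →ₗ[k] V) ⟨v, hv⟩) (hfix f)
      simp only [hKv] at h1
      rw [map_mul, map_mul, Module.End.mul_apply, Module.End.mul_apply]
      rw [show (f : U →ₗ[k] V) ⟨v, hv⟩ = ρ b v from rfl,
        show (f : U →ₗ[k] V) (Ti ⟨v, hv⟩) = ρ b (Ti ⟨v, hv⟩ : V) from rfl, hTi] at h1
      exact h1
    have htB : (t : G) ∈ B := ⟨t, ht, rfl⟩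
    rw [classAut_mk, mk_eq_mk]
    refine ⟨M.mul_mem (M.inv_mem (hMn.conj_mem _ t.2 _)) t.2, 1, fun w hw => ?_⟩
    rw [one_smul]
    show ρ (((u : G) * t * (u : G)⁻¹)⁻¹ * (t : G)) w = w
    rw [← hfill] at hw
    refine Submodule.iSup_induction _ (motive := fun w => ρ (((u : G) * t * (u : G)⁻¹)⁻¹ * (t : G)) w = w) hw
      (fun b z hz => ?_) (by simp) (fun x z hx hz => by rw [map_add, hx, hz])
    obtain ⟨v, hv, rfl⟩ := hz
    have hb'B : (u : G)⁻¹ * (b : G) * (u : G) ∈ B := by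
      obtain ⟨hbM, hb'⟩ := hBmem b.2
      refine ⟨⟨(u : G)⁻¹ * (b : G) * (u : G), by simpa using hMn.conj_mem _ hbM (u : G)⁻¹⟩, ?_, rfl⟩
      show Y (cl _) = cl _
      rw [show cl ⟨(u : G)⁻¹ * (b : G) * (u : G), _⟩ = classAut W u⁻¹ (cl ⟨(b : G), hbM⟩) by
        show _ = classAut W u⁻¹ ((⟨(b : G), hbM⟩ : M) : Tb W)
        rw [classAut_mk]
        exact congrArg QuotientGroup.mk (Subtype.ext (by simp)), hY, ← MulAut.mul_apply, ← map_mul, hy,
        ((Commute.refl u).inv_left.pow_right _).symm.eq, map_mul, MulAut.mul_apply, ← hy, ← hY]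
      exact congrArg _ hb'
    have e1 := hloc _ hb'B v hv
    rw [show (u : G) * ((u : G)⁻¹ * (b : G) * (u : G)) * (u : G)⁻¹ = (b : G) by group] at e1
    have e2 := hloc _ (B.mul_mem htB hb'B) v hv
    rw [show (u : G) * ((t : G) * ((u : G)⁻¹ * (b : G) * (u : G))) * (u : G)⁻¹ =
      (u : G) * t * (u : G)⁻¹ * (b : G) by group] at e2
    have e3 : ρ ((t : G) * b) v = ρ ((u : G) * t * (u : G)⁻¹ * b) v := by
      rw [e2, map_mul (ρ), map_mul (ρ), Module.End.mul_apply, Module.End.mul_apply, e1]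
    rw [← Module.End.mul_apply, ← map_mul, mul_assoc, map_mul, Module.End.mul_apply, e3, ← Module.End.mul_apply,
      ← map_mul, inv_mul_cancel_left]
  · -- at most `q ^ 2` inverted classes
    let rep : Sm → M := fun z => Quotient.out z.1
    have hrep : ∀ z : Sm, ((rep z : M) : Tb W) = z.1 := fun z => QuotientGroup.out_eq' z.1
    have hrepQ : ∀ z : Sm, (rep z : G) ∈ Q := fun z => ⟨rep z, by
      show Y ((rep z : M) : Tb W) = ((rep z : M) : Tb W)⁻¹
      rw [hrep]; exact z.2, rfl⟩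
    let F : Sm → Module.End k U := fun z => ((θ ⟨rep z, hQS (hrepQ z)⟩ : (Module.End k U)ˣ) : Module.End k U)
    have hF : ∀ z (v : U), (F z v : V) = ρ (rep z : G) v := fun z v => rfl
    have hFne : ∀ z, F z ≠ 0 := fun z h0 => Units.ne_zero (θ ⟨rep z, hQS (hrepQ z)⟩) h0
    have hli : LinearIndependent k F := by
      rw [linearIndependent_iff']
      intro S₀
      induction S₀ using Finset.induction_on with
      | empty => intro c _ i hi; exact absurd hi (Finset.notMem_empty i)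
      | insert z₀ S₀ hz₀ IH =>
        intro c hsum
        have hkey : ∀ z ∈ S₀, c z = 0 := by
          intro z hz
          -- an element telling `z` from `z₀`
          have hzne : ((rep z * (rep z₀)⁻¹ : M) : Tb W) ≠ 1 := by
            rw [QuotientGroup.mk_mul, QuotientGroup.mk_inv, hrep, hrep, Ne, mul_inv_eq_one]
            exact fun h => hz₀ (Subtype.ext h ▸ hz)
          obtain ⟨r, hr, hnt⟩ := hnondeg (rep z * (rep z₀)⁻¹) (by
            rw [QuotientGroup.mk_mul, QuotientGroup.mk_inv, hrep, hrep, map_mul, map_inv, show Y z.1 = z.1⁻¹ from z.2,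
              show Y z₀.1 = z₀.1⁻¹ from z₀.2, mul_inv]) hzne
          choose tw htw using fun z' : Sm => exists_twist hc W (rep z').2 r.2
          have hrQ : (r : G) ∈ Q := ⟨r, hr, rfl⟩
          set Fr := ((θ ⟨r, hQS hrQ⟩ : (Module.End k U)ˣ) : Module.End k U)
          have hcom : ∀ z', F z' * Fr = tw z' • (Fr * F z') := fun z' =>
            LinearMap.ext fun v => Subtype.ext (htw z' v (hUW v.2))
          have h1 : ∑ i ∈ insert z₀ S₀, (c i * tw i) • F i = 0 := by
            have h2 : Fr * ∑ i ∈ insert z₀ S₀, (c i * tw i) • F i = 0 := by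
              rw [Finset.mul_sum]
              calc ∑ i ∈ insert z₀ S₀, Fr * ((c i * tw i) • F i)
                  = (∑ i ∈ insert z₀ S₀, c i • F i) * Fr := by
                    rw [Finset.sum_mul]
                    exact Finset.sum_congr rfl fun i _ => by rw [smul_mul_assoc, hcom, smul_smul, mul_smul_comm]
                _ = 0 := by rw [hsum, zero_mul]
            exact (Units.mul_right_eq_zero (θ ⟨r, hQS hrQ⟩)).1 h2
          have h3 : ∑ i ∈ insert z₀ S₀, (c i * tw i - tw z₀ * c i) • F i = 0 := by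
            rw [Finset.sum_congr rfl fun i _ => (sub_smul (c i * tw i) (tw z₀ * c i) (F i)).trans
              (congrArg ((c i * tw i) • F i - ·) (mul_smul (tw z₀) (c i) (F i))),
              Finset.sum_sub_distrib, ← Finset.smul_sum, h1, hsum, smul_zero, sub_zero]
          rw [Finset.sum_insert hz₀, show c z₀ * tw z₀ - tw z₀ * c z₀ = 0 by ring, zero_smul, zero_add] at h3
          have h4 := IH _ h3 z hz
          rw [mul_comm (tw z₀), ← mul_sub, mul_eq_zero, sub_eq_zero] at h4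
          refine h4.resolve_right fun heq' => hnt ?_
          intro w hw
          rw [Subgroup.coe_mul, Subgroup.coe_inv, one_smul, map_mul, Module.End.mul_apply, Module.End.mul_apply]
          obtain ⟨hne, hinv⟩ := (htw z₀).inv_left (rep z₀).2 r.2
          have hz₀i := M.inv_mem (rep z₀).2
          rw [hinv w hw, map_smul, htw z _ (W.2.1 _ hz₀i w hw), smul_smul, heq', inv_mul_cancel₀ hne, one_smul]
        intro i hi
        rcases Finset.mem_insert.1 hi with rfl | hi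
        · rw [Finset.sum_insert hz₀, Finset.sum_eq_zero fun j hj => by rw [hkey j hj, zero_smul], add_zero] at hsum
          exact (smul_eq_zero.1 hsum).resolve_right (hFne i)
        · exact hkey i hi
    haveI := Fintype.ofFinite Sm
    have h1 := hli.fintype_card_le_finrank
    rw [Module.finrank_linearMap, hdimq, ← pow_two, ← Nat.card_eq_fintype_card] at h1
    exact h1

end CfsgLib.GrossLength
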